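import Mathlib
import Cfsg.Agent.R24.Defs

/-! Basic properties of the codes and of the frame. -/

set_option autoImplicit false

namespace Cfsg.Agent.R24

open Cfsg.Agent.Spor Cfsg.Agent.Inv.Fz Subgroup
open Cfsg.Agent.Spor.MB hiding cj
open scoped Pointwise

/-! ### Codes -/

theorem feq {α : Type} (n : ℕ) (k : ℕ → α) : Spor.force n k = k n := (Spor.force_eq n k).trans rfl

theorem xor_lt {a b : ℕ} (ha : a < 2048) (hb : b < 2048) : a ^^^ b < 2048 := Nat.xor_lt_two_pow (n := 11) ha hb

theorem lin_xor (n : ℕ) (m : ℕ → ℕ) (a b : ℕ) : lin n m (a ^^^ b) = lin n m a ^^^ lin n m b := by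
  refine Eq.trans ?_ (xorN_xor _ _ n)
  unfold lin
  congr 1
  funext i
  simp only [land_shiftRight_one]
  simp only [Nat.xor_eq, Nat.testBit_xor, Nat.mul_eq]
  cases a.testBit i <;> cases b.testBit i <;> simp

theorem lin_zero (n : ℕ) (m : ℕ → ℕ) : lin n m 0 = 0 := by simpa using lin_xor n m 0 0

theorem xorN_lt {f : ℕ → ℕ} {k : ℕ} (h : ∀ i, f i < 2 ^ k) (n : ℕ) : xorN f n < 2 ^ k := by
  induction n with
  | zero => exact Nat.two_pow_pos k
  | succ n ih => exact Nat.xor_lt_two_pow (h n) ih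

theorem lin_lt {m : ℕ → ℕ} {k : ℕ} (h : ∀ i, m i < 2 ^ k) (n x : ℕ) : lin n m x < 2 ^ k :=
  xorN_lt (fun i => by rw [land_shiftRight_one]; split_ifs <;> simp [h i]) n

theorem xorN_congr {f g : ℕ → ℕ} {n : ℕ} (h : ∀ i < n, f i = g i) : xorN f n = xorN g n := by
  induction n with
  | zero => rfl
  | succ n ih => exact congrArg₂ Nat.xor (h n n.lt_succ_self) (ih fun i hi => h i (by omega))

theorem lin_congr {m m' : ℕ → ℕ} {n : ℕ} (h : ∀ i < n, m i = m' i) (x : ℕ) : lin n m x = lin n m' x :=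
  xorN_congr fun i hi => by rw [h i hi]

/-- An additive map commutes with `lin`. -/
theorem map_lin {φ : ℕ → ℕ} (h : ∀ a b, φ (a ^^^ b) = φ a ^^^ φ b) (n : ℕ) (m : ℕ → ℕ) (x : ℕ) :
    φ (lin n m x) = lin n (fun k => φ (m k)) x := by
  have h0 : φ 0 = 0 := by simpa using h 0 0
  induction n with
  | zero => exact h0
  | succ n ih =>
    refine (h _ _).trans (congrArg₂ Nat.xor ?_ ih)
    simp only [land_shiftRight_one]
    split_ifs <;> simp [h0]

theorem getP_lt (M i : ℕ) : getP 11 2047 M i < 2 ^ 11 := Nat.lt_succ_of_le Nat.and_le_right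

theorem apm_eq (M x : ℕ) : apm M x = lin 11 (getP 11 2047 M) x := rfl
theorem apm_lt (M x : ℕ) : apm M x < 2048 := by rw [apm_eq]; exact lin_lt (getP_lt M) 11 x
theorem apm_xor (M a b : ℕ) : apm M (a ^^^ b) = apm M a ^^^ apm M b := by simp only [apm_eq, lin_xor]
theorem ac_def (t : Bool) (c x : ℕ) : apm (mx t c) x = ac t c x := rfl
theorem ac_lt (t : Bool) (c x : ℕ) : ac t c x < 2048 := apm_lt _ _
theorem ac_xor (t : Bool) (c a b : ℕ) : ac t c (a ^^^ b) = ac t c a ^^^ ac t c b := apm_xor _ a b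
theorem ac_zero (t : Bool) (c : ℕ) : ac t c 0 = 0 := by rw [ac, apm_eq, lin_zero]
theorem lm_xor (t : Bool) (a b : ℕ) : lm t (a ^^^ b) = lm t a ^^^ lm t b := lin_xor _ _ a b
theorem lm_lt (t : Bool) (m : ℕ) : lm t m < 2048 := lin_lt (k := 11) (fun _ => getP_lt _ _) 24 m
theorem rp_xor (t : Bool) (a b : ℕ) : rp t (a ^^^ b) = rp t a ^^^ rp t b := lin_xor _ _ a b
theorem rp_lt (t : Bool) (x : ℕ) : rp t x < 2 ^ 24 := lin_lt (fun _ => Nat.lt_succ_of_le Nat.and_le_right) 11 x

theorem getP_orN {f : ℕ → ℕ} (hf : ∀ k, f k < 2 ^ 11) {k n : ℕ} (hk : k < n) :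
    getP 11 2047 (orN (fun k => Nat.shiftLeft (f k) (Nat.mul 11 k)) n) k = f k := by
  refine Nat.eq_of_testBit_eq fun j => ?_
  simp only [getP, Nat.land_eq, Nat.shiftRight_eq, Nat.mul_eq, Nat.testBit_and, Nat.testBit_shiftRight]
  rw [show (2047 : ℕ) = 2 ^ 11 - 1 from rfl, Nat.testBit_two_pow_sub_one, Bool.eq_iff_iff, Bool.and_eq_true,
    testBit_orN, decide_eq_true_iff]
  have hb : ∀ k j, (f k).testBit j = true → j < 11 := fun k j h => by
    by_contra n
    rw [Nat.testBit_lt_two_pow ((hf k).trans_le (Nat.pow_le_pow_right (by decide) (by omega)))] at h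
    exact absurd h (by decide)
  constructor
  · rintro ⟨⟨i, -, h⟩, hj⟩
    simp only [Nat.shiftLeft_eq', Nat.testBit_shiftLeft, Bool.and_eq_true, decide_eq_true_iff] at h
    have := hb _ _ h.2
    obtain rfl : i = k := by omega
    simpa using h.2
  · exact fun h => ⟨⟨k, hk, by simp [Nat.shiftLeft_eq', Nat.testBit_shiftLeft, h]⟩, hb _ _ h⟩

theorem act_xor (g : PG) (a b : ℕ) : act (code g) (a ^^^ b) = act (code g) a ^^^ act (code g) b := by
  rw [← mask_unmask (act_code_lt g a), ← mask_unmask (act_code_lt g b), ← mask_unmask (act_code_lt g _),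
    ← smul_unmask, ← smul_unmask, ← smul_unmask, show unmask (a ^^^ b) = _ from unmask_xor _ _, smul_symmDiff,
    mask_symmDiff]; rfl

theorem ac_eq (t : Bool) (g : PG) (x : ℕ) : ac t (code g) x = lm t (act (code g) (rp t x)) := by
  rw [rp, map_lin (φ := fun m => lm t (act (code g) m)) (fun a b => by rw [act_xor, lm_xor]), ac, apm_eq]
  exact lin_congr (fun _ hk => getP_orN (f := fun k => lm t (act (code g) (bm t k))) (fun _ => lm_lt _ _) hk) x

theorem lm_rp (t : Bool) {x : ℕ} (hx : x < 2048) : lm t (rp t x) = x := by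
  have h : ∀ t, allRange 0 2048 (fun x => Nat.beq (Spor.force (rp t x) (lm t)) x) = true := by decide +kernel
  simpa only [feq, nbeq_iff] using allRange_zero (h t) x hx

theorem dom_false {s : Finset GolayPt} : Dom false s ↔ Even s.card := Iff.rfl
theorem dom_true {s : Finset GolayPt} : Dom true s ↔ s ∈ CW := Iff.rfl
theorem ker_false {s : Finset GolayPt} : Ker false s ↔ s ∈ CW := Iff.rfl
theorem ker_true {s : Finset GolayPt} : Ker true s ↔ s = ∅ ∨ s = Finset.univ := Iff.rfl

theorem dom_rp (t : Bool) {x : ℕ} (hx : x < 2048) : Dom t (unmask (rp t x)) := by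
  cases t
  · have h := allRange_zero (len := 2048) (f := fun x => Nat.beq (Spor.force (rp false x) pc % 2) 0)
      (by decide +kernel) x hx
    rw [dom_false, card_unmask]
    exact Nat.even_iff.2 (by simpa only [feq, nbeq_iff] using h)
  · have h := allRange_zero (len := 2048) (f := fun x => Spor.force (rp true x) isCode) (by decide +kernel) x hx
    rw [feq] at h
    exact dom_true.2 (unmask_mem_CW h)

theorem Dom.smul {t : Bool} {g : PG} (hg : g ∈ M24) {s : Finset GolayPt} (h : Dom t s) : Dom t (g • s) := by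
  cases t
  exacts [dom_false.2 (by rwa [Finset.card_smul_finset]), smul_mem_CW hg h]

theorem Dom.symmDiff {t : Bool} {s u : Finset GolayPt} (h : Dom t s) (h' : Dom t u) : Dom t (symmDiff s u) := by
  cases t
  · have := card_symmDiff_add s u
    obtain ⟨a, ha⟩ := h
    obtain ⟨b, hb⟩ := h'
    exact Nat.even_iff.2 (by omega)
  · exact symmDiff_mem_CW h h'

theorem Ker.smul {t : Bool} {g : PG} (hg : g ∈ M24) {s : Finset GolayPt} (h : Ker t s) : Ker t (g • s) := by
  cases t
  · exact smul_mem_CW hg h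
  · rcases h with rfl | rfl
    exacts [.inl (Finset.smul_finset_empty g), .inr Finset.smul_finset_univ]

theorem lm_ker {t : Bool} {s : Finset GolayPt} (h : Ker t s) : lm t (mask s) = 0 := by
  cases t
  · obtain ⟨x, hx, e⟩ := exists_enc (mem_CW_iff.1 h)
    have h1 := allRange_zero (len := 4096) (f := fun x => Nat.beq (Spor.force (enc x) (lm false)) 0)
      (by decide +kernel) x hx
    simpa only [feq, nbeq_iff, e] using h1
  · rcases h with rfl | rfl
    · rw [mask_empty]; exact lin_zero _ _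
    · rw [mask_univ]; decide +kernel

theorem ker_rp {t : Bool} {s : Finset GolayPt} (h : Dom t s) :
    Ker t (symmDiff s (unmask (rp t (lm t (mask s))))) := by
  cases t
  · have k : ∀ s : Finset GolayPt, syn (mask s ^^^ rp false (lm false (mask s))) =
        if Even s.card then 0 else syn (2 ^ 23) := fun s => by
      induction s using Finset.induction_on with
      | empty => rw [mask_empty]; decide +kernel
      | insert p s hp ih =>
        have h1 : ∀ i < 24, syn (2 ^ i ^^^ rp false (lm false (2 ^ i))) = syn (2 ^ 23) := by decide +kernel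
        have h2 : insert p s = symmDiff {p} s := by
          ext q; simp only [Finset.mem_insert, Finset.mem_symmDiff, Finset.mem_singleton]; grind
        rw [Finset.card_insert_of_notMem hp, h2, mask_symmDiff, mask_singleton, Nat.xor_eq, lm_xor, rp_xor,
          show ∀ a b c d : ℕ, a ^^^ b ^^^ (c ^^^ d) = Nat.xor (a ^^^ c) (b ^^^ d) from fun a b c d => by
            rw [Nat.xor_eq]; ac_rfl, syn_xor, h1 _ (ix_lt p), ih]
        simp only [Nat.even_add_one]
        split_ifs <;> simp
    have h1 := k s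
    rw [if_pos (dom_false.1 h), syn_eq_zero] at h1
    exact mem_CW_iff.2 (by rwa [mask_symmDiff, mask_unmask (rp_lt _ _)])
  · obtain ⟨x, hx, e⟩ := exists_enc (mem_CW_iff.1 h)
    have h1 := allRange_zero (len := 4096) (f := fun x => Spor.force (enc x) fun m => Spor.force (lm true m) fun y =>
      Spor.force (Nat.xor m (rp true y)) fun r => bor (Nat.beq r 0) (Nat.beq r 16777215)) (by decide +kernel) x hx
    simp only [feq, bor_iff, nbeq_iff, e] at h1
    have h2 : symmDiff s (unmask (rp true (lm true (mask s)))) =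
        unmask (Nat.xor (mask s) (rp true (lm true (mask s)))) := by rw [unmask_xor, unmask_mask]
    rw [h2]
    exact h1.imp (fun e => by rw [e, unmask_zero]) fun e => by rw [e, unmask_full]

theorem lm_eq_zero {t : Bool} {s : Finset GolayPt} (h : Dom t s) : lm t (mask s) = 0 ↔ Ker t s :=
  ⟨fun e => by simpa [e, rp, lin_zero, unmask_zero, ← Finset.bot_eq_empty] using ker_rp h, lm_ker⟩

theorem eq_of_xor {a b : ℕ} (h : a ^^^ b = 0) : a = b := Nat.xor_eq_zero_iff.1 h

theorem lm_smul {t : Bool} {g : PG} (hg : g ∈ M24) {s : Finset GolayPt} (h : Dom t s) :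
    lm t (mask (g • s)) = ac t (code g) (lm t (mask s)) := by
  have h1 := lm_ker ((ker_rp h).smul hg)
  rw [smul_symmDiff, mask_symmDiff, Nat.xor_eq, lm_xor, smul_unmask, mask_unmask (act_code_lt _ _)] at h1
  rw [ac_eq]; exact eq_of_xor h1

theorem ac_mul {t : Bool} {g h : PG} (hg : g ∈ M24) (hh : h ∈ M24) {x : ℕ} (hx : x < 2048) :
    ac t (code (g * h)) x = ac t (code g) (ac t (code h) x) := by
  have k := fun m (hm : m ∈ M24) => lm_smul hm (dom_rp t hx)
  rw [mask_unmask (rp_lt _ _), lm_rp t hx] at k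
  rw [← k _ (mul_mem hg hh), ← k _ hh, mul_smul, lm_smul hg ((dom_rp t hx).smul hh)]

theorem ac_idc (t : Bool) {x : ℕ} (hx : x < 2048) : ac t idc x = x := by
  have k := lm_smul (one_mem M24) (dom_rp t hx)
  rwa [one_smul, mask_unmask (rp_lt _ _), lm_rp t hx, code_one, eq_comm] at k

/-! ### Tables -/

section
variable {e : ℕ → ℕ} {n : ℕ} {h : tabOK e (n + 1) = true}

theorem mem_tabG {g : PG} : g ∈ tabG e n h ↔ ∃ i < n + 1, code g = e i := Iff.rfl

theorem tabG_le : tabG e n h ≤ M24 := fun _ ⟨i, hi, e'⟩ => mem_M24_of_code (e' ▸ ((tabOK_spec h).2 i hi).1)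

theorem tab_inj (h : tabOK e (n + 1) = true) {i j : ℕ} (hi : i < n + 1) (hj : j < n + 1) (e' : e i = e j) : i = j := by
  obtain ⟨h0, h1⟩ := tabOK_spec h
  refine eq_of_xor ((h1 _ ((h1 i hi).2.2 j hj).1).2.1 ?_)
  rw [← ((h1 i hi).2.2 j hj).2, e', ((h1 j hj).2.2 j hj).2, Nat.xor_self, h0]

theorem card_tabG : Nat.card (tabG e n h) = n + 1 := by
  have k := fun i : Fin (n + 1) => code_toPerm' ((tabOK_spec h).2 i i.2).1
  rw [← Nat.card_eq_of_bijective (fun i : Fin (n + 1) => (⟨toPerm (e i), i, i.2, k i⟩ : tabG e n h))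
    ⟨fun i j e' => Fin.ext (tab_inj h i.2 j.2 (by rw [← k i, ← k j]; exact congrArg (fun x => code x.1) e')),
      fun ⟨g, i, hi, e'⟩ => ⟨⟨i, hi⟩, Subtype.ext (code_injective ((k ⟨i, hi⟩).trans e'.symm))⟩⟩]
  simp

theorem sq_tabG {g : PG} (hg : g ∈ tabG e n h) : g * g = 1 := by
  obtain ⟨i, hi, e'⟩ := hg
  exact code_injective (by
    rw [code_mul, e', (((tabOK_spec h).2 i hi).2.2 i hi).2, Nat.xor_self, (tabOK_spec h).1, code_one])
end

theorem mem_EE {g : PG} : g ∈ EE ↔ ∃ i < 16, code g = eE i := Iff.rfl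
theorem mem_ES {g : PG} : g ∈ ES ↔ ∃ i < 64, code g = eS i := Iff.rfl
theorem mem_ET {g : PG} : g ∈ ET ↔ ∃ i < 64, code g = eT i := Iff.rfl
theorem EE_le : EE ≤ M24 := tabG_le
theorem ES_le : ES ≤ M24 := tabG_le
theorem ET_le : ET ≤ M24 := tabG_le
theorem card_EE : Nat.card EE = 16 := card_tabG
theorem card_ES : Nat.card ES = 64 := card_tabG
theorem card_ET : Nat.card ET = 64 := card_tabG
theorem in_eE {i : ℕ} (hi : i < 16) : inM24 (eE i) = true := ((tabOK_spec okE).2 i hi).1
theorem in_eS {i : ℕ} (hi : i < 64) : inM24 (eS i) = true := ((tabOK_spec okS).2 i hi).1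
theorem in_eT {i : ℕ} (hi : i < 64) : inM24 (eT i) = true := ((tabOK_spec okT).2 i hi).1
theorem in_cw : inM24 cw = true := by decide +kernel
theorem P2_le : P2 ≤ M24 := gens_gP2.clo_le
theorem SY_le (t : Bool) : SY t ≤ M24 := by cases t <;> exact inf_le_left
theorem EX_le (t : Bool) : EX t ≤ M24 := by cases t; exacts [ES_le, EE_le]
theorem card_SY_true : Nat.card (SY true) = 322560 := card_stab_octad O0_mem
theorem card_SY_false : Nat.card (SY false) = 138240 := card_stab_sextet S0_mem

theorem P2_le_SY (t : Bool) : P2 ≤ SY t := by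
  cases t
  exacts [(gens_stabFam (by decide +kernel)).clo_le, (gens_stabSet (by decide +kernel)).clo_le]

theorem mem_SY {t : Bool} {g : PG} : g ∈ SY t ↔ g ∈ M24 ∧ ac t (code g) 1024 = 1024 := by
  cases t
  · refine and_congr_right fun hg => ?_
    have h1 : unmask 8388615 ∈ S0 := mem_fam.2 ⟨_, by decide, rfl⟩
    have h2 : Dom false (unmask 8388615) := by rw [dom_false, card_unmask]; decide +kernel
    have h3 : lm false (mask (unmask 8388615)) = 1024 := by rw [mask_unmask (by decide)]; decide +kernel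
    refine (smul_sextet_eq_iff hg S0_mem h1).trans ?_
    rw [nbeq_iff, ← mask_smul, ← symmDiff_mem_CW_iff]
    refine (lm_eq_zero (t := false) ((h2.smul hg).symmDiff h2)).symm.trans ?_
    rw [mask_symmDiff, Nat.xor_eq, lm_xor, lm_smul hg h2, h3, Nat.xor_eq_zero_iff]
  · refine and_congr_right fun hg => ?_
    have h2 : Dom true O0 := O0_mem.1
    have h3 : lm true (mask O0) = 1024 := by rw [mask_unmask (by decide)]; decide +kernel
    rw [← h3, ← lm_smul hg h2]
    refine ⟨fun e => by rw [show g • O0 = O0 from e], fun e => ?_⟩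
    have h4 := (lm_eq_zero ((h2.smul hg).symmDiff h2)).1 (by rw [mask_symmDiff, Nat.xor_eq, lm_xor, e, Nat.xor_self])
    rcases h4 with h4 | h4
    · exact symmDiff_eq_bot.1 h4
    · have h5 := card_symmDiff_add (g • O0) O0
      rw [h4, Finset.card_smul_finset, (mem_octads.1 O0_mem).2, Finset.card_univ, card_golayPt] at h5
      omega

end Cfsg.Agent.R24
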