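import Mathlib
import Cfsg.Agent.R24.Bas

/-! Basic properties of the frame. -/

set_option autoImplicit false

namespace Cfsg.Agent.R24

open Cfsg.Agent.Spor Cfsg.Agent.Inv.Fz Subgroup
open Cfsg.Agent.Spor.MB hiding cj
open scoped Pointwise

/-- The number of `a < 2048` that pass the test. -/
def cnt (q : ℕ → Bool) : ℕ := addN (fun i => addN (fun j => Bool.rec 0 1 (q (Nat.add (Nat.mul 64 i) j))) 64) 32

theorem ncard_lt (P : ℕ → Prop) (q : ℕ → Bool) (h : ∀ a < 2048, P a ↔ q a = true) :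
    {a | a < 2048 ∧ P a}.ncard = cnt q := by
  have h1 : {a | a < 2048 ∧ P a} = ↑((Finset.range (32 * 64)).filter fun a => q a = true) := by
    ext a; simp only [Set.mem_ofPred_eq, Finset.coe_filter, Finset.mem_range]; exact and_congr_right (h a)
  have h2 : ∀ (f : ℕ → ℕ) (n : ℕ), ∑ a ∈ Finset.range (n * 64), f a =
      ∑ i ∈ Finset.range n, ∑ j ∈ Finset.range 64, f (i * 64 + j) := fun f n => by
    induction n with
    | zero => simp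
    | succ n ih => rw [add_mul, one_mul, Finset.sum_range_add, ih, Finset.sum_range_succ _ n]
  rw [h1, Set.ncard_coe_finset, Finset.card_filter, h2, cnt, addN_eq_sum]
  refine Finset.sum_congr rfl fun i _ => ?_
  rw [addN_eq_sum]
  refine Finset.sum_congr rfl fun j _ => ?_
  simp only [Nat.add_eq, Nat.mul_eq, mul_comm i]
  cases q (64 * i + j) <;> rfl

variable {G : Type*} [Group G]

namespace Fr

variable {t : Bool} (F : Fr t G) {a b c d m : ℕ} {g h : G}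

theorem e_zero : F.e 0 = 1 := left_eq_mul.1 (F.xor 0 (by decide) 0 (by decide))
theorem e_mem (ha : a < 2048) : F.e a ∈ F.V := (F.mem _).2 ⟨a, ha, rfl⟩
theorem e_sq (ha : a < 2048) : F.e a * F.e a = 1 := by rw [← F.xor a ha a ha, Nat.xor_self, e_zero]
theorem e_inv (ha : a < 2048) : (F.e a)⁻¹ = F.e a := inv_eq_of_mul_eq_one_left (F.e_sq ha)
theorem e_inj (ha : a < 2048) (hb : b < 2048) (e : F.e a = F.e b) : a = b :=
  eq_of_xor (F.inj _ (xor_lt ha hb) (by rw [F.xor a ha b hb, e, F.e_sq hb]))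
theorem e_eq_one (ha : a < 2048) : F.e a = 1 ↔ a = 0 := ⟨F.inj a ha, fun e => e ▸ F.e_zero⟩
theorem sq : ∀ v ∈ F.V, v * v = 1 := fun v hv => by obtain ⟨a, ha, rfl⟩ := (F.mem v).1 hv; exact F.e_sq ha
theorem inv_eq (hg : g ∈ F.V) : g⁻¹ = g := inv_eq_of_mul_eq_one_left (F.sq g hg)
theorem comm (hg : g ∈ F.V) (hh : h ∈ F.V) : g * h = h * g := by
  rw [← F.inv_eq (mul_mem hg hh), mul_inv_rev, F.inv_eq hg, F.inv_eq hh]
theorem pg_V : IsPGroup 2 F.V := fun x => ⟨1, Subtype.ext (by simpa [pow_two] using F.sq x x.2)⟩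
theorem V_le_N : F.V ≤ F.N := le_normalizer
theorem s_mem : F.s ∈ F.V := F.e_mem (by decide)
theorem s_ne : F.s ≠ 1 := fun e => absurd (F.inj _ (by decide) e) (by decide)
theorem s_sq : F.s * F.s = 1 := F.e_sq (by decide)
theorem mem_C : g ∈ F.C ↔ F.s * g = g * F.s := mem_centralizer_singleton
theorem V_le_C : F.V ≤ F.C := fun _ hv => F.mem_C.2 (F.comm F.s_mem hv)

theorem ncard_e (P : G → Prop) (q : ℕ → Bool) (h : ∀ a < 2048, P (F.e a) ↔ q a = true) :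
    {g | g ∈ F.V ∧ P g}.ncard = cnt q := by
  rw [← ncard_lt _ q h, ← Set.InjOn.ncard_image (f := F.e) fun a ha b hb => F.e_inj ha.1 hb.1]
  congr 1
  ext g
  exact ⟨fun ⟨h1, h2⟩ => let ⟨a, ha, e⟩ := (F.mem g).1 h1; ⟨a, ⟨ha, e ▸ h2⟩, e⟩,
    fun ⟨a, ha, e⟩ => e ▸ ⟨F.e_mem ha.1, ha.2⟩⟩

theorem card_of_le {U : Subgroup G} (hU : U ≤ F.V) (q : ℕ → Bool) (h : ∀ a < 2048, F.e a ∈ U ↔ q a = true) :
    Nat.card U = cnt q := by
  rw [← F.ncard_e (· ∈ U) q h, ← Nat.card_coe_set_eq]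
  exact Nat.card_congr (Equiv.subtypeEquivRight fun x => ⟨fun h => ⟨hU h, h⟩, fun h => h.2⟩)

theorem card_V : Nat.card F.V = 2048 :=
  (F.card_of_le le_rfl (fun _ => true) fun _ ha => ⟨fun _ => rfl, fun _ => F.e_mem ha⟩).trans (by decide +kernel)

theorem md : Md F.V F.σ := ⟨F.sq, F.card_V, F.cent, F.range, F.ker⟩

theorem mem_sub : g ∈ F.sub m ↔ ∃ a < 2048, a &&& m = 0 ∧ F.e a = g := by
  refine ⟨fun h => closure_induction (fun _ h => h) ⟨0, by decide, Nat.zero_and m, F.e_zero⟩ ?_ ?_ h,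
    fun h => subset_closure h⟩
  · rintro _ _ - - ⟨a, ha, h1, rfl⟩ ⟨b, hb, h2, rfl⟩
    exact ⟨a ^^^ b, xor_lt ha hb, by rw [Nat.and_xor_distrib_right, h1, h2]; rfl, F.xor a ha b hb⟩
  · rintro _ - ⟨a, ha, h1, rfl⟩
    exact ⟨a, ha, h1, (F.e_inv ha).symm⟩

theorem e_mem_sub (ha : a < 2048) : F.e a ∈ F.sub m ↔ a &&& m = 0 :=
  F.mem_sub.trans ⟨fun ⟨_, hb, h, e⟩ => F.e_inj hb ha e ▸ h, fun h => ⟨a, ha, h, rfl⟩⟩

theorem sub_le (m : ℕ) : F.sub m ≤ F.V := fun _ h => let ⟨_, ha, _, e⟩ := F.mem_sub.1 h; e ▸ F.e_mem ha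

/-- Close the goal `cnt _ = n` by `decide +kernel`. -/
theorem card_sub (m : ℕ) : Nat.card (F.sub m) = cnt fun a => Nat.beq (Nat.land a m) 0 :=
  F.card_of_le (F.sub_le m) _ fun _ ha => (F.e_mem_sub ha).trans (nbeq_iff _ _).symm

theorem eqv_iff (ha : a < 2048) (hb : b < 2048) : Eqv F.s (F.e a) (F.e b) ↔ (a ^^^ b) &&& 1023 = 0 := by
  have h1 : ∀ x < 2048, x &&& 1023 = 0 ↔ x = 0 ∨ x = 1024 := by decide +kernel
  rw [h1 _ (xor_lt ha hb), Eqv, s, ← F.xor _ (by decide) b hb]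
  refine or_congr ⟨fun e => by rw [F.e_inj ha hb e, Nat.xor_self], fun e => by rw [eq_of_xor e]⟩
    ⟨fun e => by rw [F.e_inj ha (xor_lt (by decide) hb) e, Nat.xor_xor_cancel_right], fun e => by
      rw [← e, Nat.xor_xor_cancel_right]⟩

theorem mem_sub_s : g ∈ F.sub 1023 ↔ g = 1 ∨ g = F.s := by
  have h := fun a ha => F.eqv_iff (a := a) (b := 0) ha (by decide)
  simp only [Eqv, e_zero, mul_one, Nat.xor_zero] at h
  exact ⟨fun hg => let ⟨a, ha, h1, e⟩ := F.mem_sub.1 hg; e ▸ (h a ha).2 h1,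
    fun hg => hg.elim (fun e => e ▸ one_mem _) fun e => e ▸ (F.e_mem_sub (by decide)).2 (by decide)⟩

/-! ### Images in `M24` -/

variable {F}

theorem Ic.mem (h : F.Ic g c) : g ∈ F.N := h.1
theorem Ic.unique (h : F.Ic g c) (h' : F.Ic g d) : c = d := h.2.symm.trans h'.2
theorem Ic.perm (h : F.Ic g c) : ∃ p ∈ M24, code p = c := ⟨_, F.range ▸ ⟨_, rfl⟩, h.2⟩
theorem Ic.mul (h1 : F.Ic g c) (h2 : F.Ic h d) : F.Ic (g * h) (mul c d) :=
  ⟨mul_mem h1.1 h2.1, by rw [← h1.2, ← h2.2, ← code_mul, ← map_mul]; rfl⟩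
theorem Ic.inv (h1 : F.Ic g c) : F.Ic g⁻¹ (inv c) := ⟨inv_mem h1.1, by rw [← h1.2, ← code_inv, ← map_inv]; rfl⟩
theorem Ic.conj (h1 : F.Ic g c) (h2 : F.Ic h d) : F.Ic (g * h * g⁻¹) (MB.cj c d) :=
  ⟨mul_mem (mul_mem h1.1 h2.1) (inv_mem h1.1), by
    rw [← h1.2, ← h2.2, ← code_conj, ← map_inv, ← map_mul, ← map_mul]; rfl⟩
theorem Ic.of_eq (h1 : F.Ic g c) (e : c = d) : F.Ic g d := e ▸ h1
theorem ic_idc : F.Ic g idc ↔ g ∈ F.V :=
  ⟨fun h => (F.ker _).1 (eq_one_iff_code.2 h.2), fun h => ⟨F.V_le_N h, eq_one_iff_code.1 ((F.ker _).2 h)⟩⟩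
theorem Ic.mem_V (h : F.Ic g c) : g ∈ F.V ↔ c = idc := ⟨fun h' => h.unique (ic_idc.2 h'), fun e => ic_idc.1 (e ▸ h)⟩
theorem Ic.pow (h : F.Ic g c) (n : ℕ) : F.Ic (g ^ n) (pw c n) := by
  induction n with
  | zero => rw [pow_zero]; exact ic_idc.2 (one_mem _)
  | succ n ih => rw [pow_succ]; exact ih.mul h
theorem Ic.conj_e (h : F.Ic g c) (ha : a < 2048) : g * F.e a * g⁻¹ = F.e (ac t c a) := h.2 ▸ F.act ⟨g, h.1⟩ a ha
theorem Ic.comm_e (h : F.Ic g c) (ha : a < 2048) : g * F.e a * g⁻¹ * (F.e a)⁻¹ = F.e (ac t c a ^^^ a) := by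
  rw [h.conj_e ha, F.e_inv ha, F.xor _ (ac_lt _ _ _) a ha]
theorem Ic.e_comm (h : F.Ic g c) (ha : a < 2048) : F.e a * g * (F.e a)⁻¹ * g⁻¹ = F.e (ac t c a ^^^ a) := by
  rw [Nat.xor_comm, F.xor a ha _ (ac_lt _ _ _), ← h.conj_e ha, F.e_inv ha]; group
theorem Ic.comm_iff (h : F.Ic g c) (ha : a < 2048) : g * F.e a = F.e a * g ↔ ac t c a = a := by
  rw [← mul_inv_eq_iff_eq_mul, h.conj_e ha]
  exact ⟨F.e_inj (ac_lt _ _ _) ha, fun e => by rw [e]⟩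
theorem exists_ic (hg : g ∈ F.N) : ∃ p ∈ M24, F.Ic g (code p) := ⟨_, F.range ▸ ⟨_, rfl⟩, hg, rfl⟩
variable (F) in
theorem lift' {p : PG} (hp : p ∈ M24) : ∃ g, F.Ic g (code p) := by
  obtain ⟨n, rfl⟩ := F.range ▸ hp
  exact ⟨n, n.2, rfl⟩
variable (F) in
theorem lift (hc : inM24 c = true) : ∃ g, F.Ic g c := code_toPerm' hc ▸ F.lift' (toPerm_mem hc)
theorem Ic.eq_mul (h1 : F.Ic g c) (h2 : F.Ic h c) : ∃ a < 2048, h = F.e a * g := by
  obtain ⟨p, -, rfl⟩ := h1.perm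
  obtain ⟨a, ha, e⟩ := (F.mem _).1 (ic_idc.1 ((h2.mul h1.inv).of_eq (by
    rw [← code_inv, ← code_mul, mul_inv_cancel, code_one])))
  exact ⟨a, ha, by rw [e]; group⟩
theorem Ic.V_mul (h1 : F.Ic g c) (hh : h ∈ F.V) : F.Ic (h * g) c := by
  obtain ⟨p, -, rfl⟩ := h1.perm
  exact ((ic_idc.2 hh).mul h1).of_eq (by rw [← code_one, ← code_mul, one_mul])
theorem Ic.mul_V (h1 : F.Ic g c) (hh : h ∈ F.V) : F.Ic (g * h) c := by
  obtain ⟨p, -, rfl⟩ := h1.perm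
  exact (h1.mul (ic_idc.2 hh)).of_eq (by rw [← code_one, ← code_mul, mul_one])

variable {H K : Subgroup PG}

theorem mem_pre : g ∈ F.pre H ↔ ∃ p ∈ H, F.Ic g (code p) :=
  ⟨fun ⟨n, hn, e⟩ => ⟨_, hn, e ▸ ⟨n.2, rfl⟩⟩, fun ⟨_, hp, h⟩ => ⟨⟨g, h.1⟩, show _ ∈ H from code_injective h.2 ▸ hp, rfl⟩⟩
theorem Ic.mem_pre {p : PG} (h : F.Ic g (code p)) : g ∈ F.pre H ↔ p ∈ H :=
  ⟨fun h' => let ⟨_, hq, e⟩ := Fr.mem_pre.1 h'; code_injective (e.unique h) ▸ hq, fun hp => Fr.mem_pre.2 ⟨p, hp, h⟩⟩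
theorem mem_pre_tab {e : ℕ → ℕ} {n : ℕ} {k : tabOK e (n + 1) = true} :
    g ∈ F.pre (tabG e n k) ↔ ∃ i < n + 1, F.Ic g (e i) :=
  ⟨fun h => let ⟨_, ⟨i, hi, e'⟩, h1⟩ := mem_pre.1 h; ⟨i, hi, e' ▸ h1⟩,
    fun ⟨i, hi, h⟩ => let ⟨p, _, e'⟩ := h.perm; mem_pre.2 ⟨p, ⟨i, hi, e'⟩, e' ▸ h⟩⟩
theorem mem_EE : g ∈ F.pre EE ↔ ∃ i < 16, F.Ic g (eE i) := mem_pre_tab
theorem mem_ES : g ∈ F.pre ES ↔ ∃ i < 64, F.Ic g (eS i) := mem_pre_tab
theorem mem_ET : g ∈ F.pre ET ↔ ∃ i < 64, F.Ic g (eT i) := mem_pre_tab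

variable (F)

theorem pre_le (H : Subgroup PG) : F.pre H ≤ F.N := map_subtype_le _
theorem V_le_pre (H : Subgroup PG) : F.V ≤ F.pre H := fun _ hv => mem_pre.2 ⟨1, one_mem _, code_one ▸ ic_idc.2 hv⟩
theorem pre_mono (h : H ≤ K) : F.pre H ≤ F.pre K := map_mono (comap_mono h)
theorem pre_M24 : F.pre M24 = F.N := le_antisymm (F.pre_le _) fun _ hg => mem_pre.2 (exists_ic hg)

theorem card_pre (h : H ≤ M24) : Nat.card (F.pre H) = 2048 * Nat.card H := by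
  have h1 : F.σ.ker = F.V.subgroupOf F.N := Subgroup.ext F.ker
  have h2 := card_mul_relIndex (show F.σ.ker ≤ H.comap F.σ from fun x hx => by
    rw [mem_comap, (MonoidHom.mem_ker).1 hx]; exact one_mem _)
  rw [relIndex_ker, map_comap_eq_self (F.range ▸ h), h1, Nat.card_congr (subgroupOfEquivOfLe F.V_le_N).toEquiv,
    card_V] at h2
  rw [pre, card_map_of_injective (subtype_injective _), h2]

theorem pre_norm (h : K ≤ normalizer (H : Set PG)) : F.pre K ≤ normalizer (F.pre H : Set G) := fun g hg => by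
  obtain ⟨p, hp, h1⟩ := mem_pre.1 hg
  have k : ∀ {g p}, p ∈ K → F.Ic g (code p) → ∀ x ∈ F.pre H, g * x * g⁻¹ ∈ F.pre H := fun hp h1 x hx => by
    obtain ⟨r, hr, h2⟩ := mem_pre.1 hx
    exact mem_pre.2 ⟨_, (mem_normalizer_iff.1 (h hp) r).1 hr, code_conj _ _ ▸ h1.conj h2⟩
  refine mem_normalizer_iff.2 fun x => ⟨k hp h1 x, fun hx => ?_⟩
  have h3 := k (inv_mem hp) (code_inv p ▸ h1.inv) _ hx
  convert h3 using 1; group

theorem card_N : Nat.card F.N = 2048 * 244823040 := by rw [← pre_M24, F.card_pre le_rfl, card_M24]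
theorem finite_N : Finite F.N := Nat.finite_of_card_ne_zero (by rw [card_N]; decide)
theorem card_T : Nat.card F.T = 2 ^ 21 := by rw [T, F.card_pre P2_le, P2, card_P2]; rfl
theorem pg_T : IsPGroup 2 F.T := IsPGroup.of_card F.card_T
theorem Y_eq : F.Y = F.pre (SY t) := Subgroup.ext fun g => by
  refine ⟨fun ⟨h1, h2⟩ => ?_, fun h => ?_⟩
  · obtain ⟨p, hp, h3⟩ := exists_ic h2
    exact mem_pre.2 ⟨p, mem_SY.2 ⟨hp, (h3.comm_iff (by decide)).1 (F.mem_C.1 h1).symm⟩, h3⟩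
  · obtain ⟨p, hp, h3⟩ := mem_pre.1 h
    exact ⟨F.mem_C.2 ((h3.comm_iff (by decide)).2 (mem_SY.1 hp).2).symm, h3.1⟩
theorem T_le_Y : F.T ≤ F.Y := F.Y_eq ▸ F.pre_mono (P2_le_SY t)
theorem T_le_N : F.T ≤ F.N := F.pre_le _
theorem T_le_C : F.T ≤ F.C := F.T_le_Y.trans inf_le_left
theorem V_le_T : F.V ≤ F.T := F.V_le_pre _
theorem V_le_X : F.V ≤ F.X := F.V_le_pre _
theorem W_le_V : F.W ≤ F.V := F.sub_le _
theorem s_mem_W : F.s ∈ F.W := (F.e_mem_sub (by decide)).2 (by cases t <;> decide)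
theorem Ic.mem_Y {F : Fr t G} (h : F.Ic g c) : g ∈ F.Y ↔ ac t c 1024 = 1024 :=
  ⟨fun h1 => (h.comm_iff (by decide)).1 (F.mem_C.1 h1.1).symm,
    fun e => ⟨F.mem_C.2 ((h.comm_iff (by decide)).2 e).symm, h.1⟩⟩

variable [Finite G]

theorem syl_N : IsSylIn 2 F.T F.N := isSylIn_of_not_dvd F.T_le_N F.pg_T fun h => by
  have h1 := card_mul_relIndex F.T_le_N
  rw [card_T, card_N] at h1
  omega

theorem syl_Y : IsSylIn 2 F.T F.Y := F.syl_N.mono F.T_le_Y inf_le_right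

end Fr

end Cfsg.Agent.R24
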