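import Mathlib
import Cfsg.Agent.R24.Bas
import Cfsg.Agent.R24.ClsKa

set_option autoImplicit false

namespace Cfsg.Agent.R24

open Cfsg.Agent.Spor Cfsg.Agent.Inv.Fz Subgroup
open Cfsg.Agent.Spor.MB hiding cj
open scoped Pointwise

variable {G : Type*} [Group G] [Finite G]

/-- The test for the involution `f` of the elementary abelian group `B`. -/
def Tst (t : Bool) (B : Subgroup PG) (f : PG) : Prop :=
  {a | a < 2048 ∧ ac t (code f) a = a}.ncard *
    {a | a < 2048 ∧ (∀ b ∈ B, ac t (code b) a = a) ∧ ∃ u < 2048, a = ac t (code f) u ^^^ u}.ncard ≤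
    Nat.card B * {a | a < 2048 ∧ ∀ b ∈ B, ac t (code b) a = a}.ncard

namespace ClsK

/-! ### Sets of vectors -/

/-- The first `n` vectors. -/
noncomputable def ones (n : ℕ) : ℕ := Nat.rec 0 (fun _ x => Nat.add (Nat.mul 4096 x) 1) n

theorem ones_succ (n : ℕ) : ones (n + 1) = 4096 * ones n + 1 := rfl

theorem ones_ON : ones 2048 = ON := by decide +kernel

theorem pop_aux (n : ℕ) : ∀ x : ℕ, x &&& ones n = x →
    x % 4095 = Nat.count (fun a => x.testBit (12 * a) = true) n % 4095 := by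
  induction n with
  | zero => intro x h; rw [← h]; simp [ones]
  | succ n ih =>
    intro x h
    have h1 : x / 2 ^ 12 &&& ones n = x / 2 ^ 12 := by
      have := congrArg (· / 2 ^ 12) h
      simp only [Nat.and_div_two_pow] at this
      rwa [show ones (n + 1) / 2 ^ 12 = ones n by rw [ones_succ]; omega] at this
    have h2 : x % 2 ^ 12 = x % 2 := by
      have := congrArg (· % 2 ^ 12) h
      simp only [Nat.and_mod_two_pow] at this
      rw [show ones (n + 1) % 2 ^ 12 = 1 by rw [ones_succ]; omega, Nat.and_one_is_mod] at this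
      omega
    have h3 := ih _ h1
    have h4 : (fun a => (x / 2 ^ 12).testBit (12 * a) = true) = fun a => x.testBit (12 * (a + 1)) = true := by
      funext a; rw [Nat.testBit_div_two_pow, mul_add]
    simp only [h4] at h3
    rw [Nat.count_succ', mul_zero, Nat.testBit_zero]
    simp only [decide_eq_true_eq]
    split_ifs <;> omega

theorem pop {x : ℕ} (h : x &&& ON = x) : x % 4095 = {a | a < 2048 ∧ x.testBit (12 * a) = true}.ncard := by
  rw [pop_aux 2048 x (ones_ON ▸ h), Nat.mod_eq_of_lt ((Nat.count_le _).trans_lt (by decide)),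
    Nat.count_eq_card_filter_range, ← Set.ncard_coe_finset]
  congr 1
  ext a
  simp

theorem tb_iff {x i : ℕ} : tb x i = true ↔ x.testBit i = true := by
  rw [tb, nbeq_iff, land_shiftRight_one]
  split_ifs with h <;> simp [h]

theorem bit_ON {a : ℕ} (ha : a < 2048) : ON.testBit (12 * a) = true := by
  have h := allRange_zero okP a ha
  rw [feq, band_iff, tb_iff] at h
  exact h.1

theorem bit_PP {a j : ℕ} (ha : a < 2048) (hj : j < 11) : (PP j).testBit (12 * a) = a.testBit j := by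
  have h := allRange_zero okP a ha
  rw [feq, band_iff, allLt_iff] at h
  have h1 := h.2 j hj
  rw [nbeq_iff, land_shiftRight_one, land_shiftRight_one, Nat.mul_eq] at h1
  revert h1
  cases (PP j).testBit (12 * a) <;> cases a.testBit j <;> simp

theorem bit_xorN {f g : ℕ → ℕ} {k l n : ℕ} (h : ∀ j < n, (f j).testBit k = (g j).testBit l) :
    (xorN f n).testBit k = (xorN g n).testBit l := by
  induction n with
  | zero => exact (Nat.zero_testBit k).trans (Nat.zero_testBit l).symm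
  | succ n ih =>
    change (f n ^^^ xorN f n).testBit k = (g n ^^^ xorN g n).testBit l
    rw [Nat.testBit_xor, Nat.testBit_xor, h n n.lt_succ_self, ih fun j hj => h j (by omega)]

theorem bit_KK {t : Bool} {i a : ℕ} (ha : a < 2048) : (KK t i).testBit (12 * a) = true ↔ ac t (iv i) a = a := by
  have k : ∀ M r, (xorN (fun j => Nat.mul (Nat.land (Nat.shiftRight (getP 11 2047 M j) r) 1) (PP j)) 11).testBit
      (12 * a) = (apm M a).testBit r := fun M r => by
    rw [apm_eq]
    refine bit_xorN fun j hj => ?_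
    rw [land_shiftRight_one, land_shiftRight_one]
    have := bit_PP ha hj
    split_ifs with h1 h2 h2 <;> simp_all
  rw [KK, feq, Nat.xor_eq, Nat.testBit_xor, bit_ON ha, Bool.true_xor, Bool.not_eq_true', ← Bool.not_eq_true,
    testBit_orN, ← ac_def]
  simp only [Nat.xor_eq, Nat.testBit_xor, k, not_exists, not_and]
  constructor
  · refine fun h => Nat.eq_of_testBit_eq fun r => ?_
    by_cases hr : r < 11
    · have := h r hr
      rw [bit_PP ha hr] at this
      revert this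
      cases a.testBit r <;> cases (apm (mx t (iv i)) a).testBit r <;> simp
    · have h2 : 2048 ≤ 2 ^ r := Nat.pow_le_pow_right (n := 2) (i := 11) (by decide) (by omega)
      rw [Nat.testBit_lt_two_pow ((apm_lt _ _).trans_le h2), Nat.testBit_lt_two_pow (ha.trans_le h2)]
  · intro h r hr
    rw [bit_PP ha hr, h]
    simp

theorem bit_one {i j : ℕ} : (Nat.shiftLeft 1 i).testBit j = true ↔ j = i := by
  rw [Nat.shiftLeft_eq', Nat.one_shiftLeft, Nat.testBit_two_pow, decide_eq_true_iff, eq_comm]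

theorem bit_LL {t : Bool} {i a : ℕ} (h : (LL t i).testBit (12 * a) = true) :
    ∃ u < 2048, a = ac t (iv i) u ^^^ u := by
  rw [LL, feq, feq, testBit_orN] at h
  obtain ⟨s, -, h⟩ := h
  rw [feq, feq, bit_one, Nat.mul_eq] at h
  exact ⟨_, Nat.lt_succ_of_le Nat.and_le_right, Nat.eq_of_mul_eq_mul_left (by decide) h⟩

theorem bit_msk {f : ℕ → ℕ} {n i : ℕ} : (msk f n).testBit i = true ↔ ∃ j < n, i = f j := by
  simp only [msk, testBit_orN, bit_one]

theorem len_eq (l : List ℕ) : len l = l.length := by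
  induction l with
  | nil => rfl
  | cons a l ih => exact congrArg Nat.succ ih

/-! ### The table -/

theorem tab {i : ℕ} (hi : i < 192) : pr i 0 = i ∧ inM24 (iv i) = true ∧ (iv i = idc → i = 0) ∧ ∀ j < 192,
    (pr i j < 192 → (cm i).testBit j = true ∧ MB.mul (iv i) (iv j) = iv (pr i j)) ∧
    (¬pr i j < 192 → ∃ p < 24, ap (iv i) (ap (iv j) p) ≠ ap (iv j) (ap (iv i) p)) := by
  have h := (allLt_iff _ _).1 ClsK.okT i hi
  rw [feq, band_iff, band_iff, band_iff, bor_iff, nbeq_iff, nbeq_iff, allLt_iff] at h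
  refine ⟨h.1, h.2.1, fun e => h.2.2.1.resolve_right fun e' => ?_, fun j hj => ?_⟩
  · rw [e, Nat.beq_refl] at e'
    exact absurd e' (by decide)
  · have h1 := h.2.2.2 j hj
    rw [feq, feq] at h1
    constructor
    · intro hd
      rw [(blt_iff _ _).2 hd] at h1
      have h2 := (band_iff _ _).1 h1
      exact ⟨tb_iff.1 h2.1, (nbeq_iff _ _).1 h2.2⟩
    · intro hd
      rw [Bool.eq_false_iff.2 fun e => hd ((blt_iff _ _).1 e)] at h1
      have h2 := (band_iff _ _).1 ((feq _ _).symm.trans h1)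
      refine ⟨_, (blt_iff _ _).1 h2.1, fun e => ?_⟩
      have h3 := h2.2
      rw [e, Nat.beq_refl] at h3
      exact absurd h3 (by decide)

theorem low_lt (x : ℕ) : low x < 192 := Nat.mod_lt _ (by decide)

/-- The position `i` holds an element of `B`. -/
def In (B : Subgroup PG) (i : ℕ) : Prop := i < 192 ∧ ∃ g ∈ B, code g = iv i

variable {B : Subgroup PG}

theorem In.mul (h2 : ∀ b ∈ B, b * b = 1) {c b : ℕ} (hc : In B c) (hb : In B b) :
    In B (pr c b) ∧ (cm c).testBit b = true ∧ MB.mul (iv c) (iv b) = iv (pr c b) := by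
  obtain ⟨hc, g, hg, eg⟩ := hc
  obtain ⟨hb, h, hh, eh⟩ := hb
  have k := (tab hc).2.2.2 b hb
  have hd : pr c b < 192 := by
    by_contra hd
    obtain ⟨p, hp, n⟩ := k.2 hd
    have e : g * h = h * g := by
      have := h2 _ (mul_mem hg hh)
      calc g * h = (h * h) * (g * h) * (g * g) := by rw [h2 g hg, h2 h hh, one_mul, mul_one]
        _ = h * ((h * g) * (h * g)) * g := by group
        _ = h * g := by rw [h2 _ (mul_mem hh hg), mul_one]
    rw [← eg, ← eh, ap_code h hp, ap_code g hp, ap_code_ix, ap_code_ix, ← Equiv.Perm.mul_apply, e] at n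
    exact n rfl
  exact ⟨⟨hd, g * h, mul_mem hg hh, by rw [code_mul, eg, eh, (k.1 hd).2]⟩, k.1 hd⟩

theorem In.div {c b : ℕ} (hc : c < 192) (hb : In B b) (hd : In B (pr c b)) : In B c := by
  obtain ⟨hb, h, hh, eh⟩ := hb
  obtain ⟨hd, g, hg, eg⟩ := hd
  have e := code_toPerm' (tab hc).2.1
  have e' : toPerm (iv c) * h = g := code_injective (by rw [code_mul, e, eh, eg, (((tab hc).2.2.2 b hb).1 hd).2])
  exact ⟨hc, g * h⁻¹, mul_mem hg (inv_mem hh), by rw [← e', mul_inv_cancel_right, e]⟩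

theorem exists_in (hB : B ≤ P2) (h2 : ∀ b ∈ B, b * b = 1) {g : PG} (hg : g ∈ B) : ∃ i, In B i ∧ code g = iv i := by
  have h := (Spor.allL_iff _ _).1 okL _ (mem_P2L g (hB hg))
  rw [feq, ← code_mul, h2 g hg, code_one, Nat.beq_refl, bor_iff, Bool.not_eq_true', Bool.not_eq_true',
    ← Bool.not_eq_true (allLt _ _), allLt_iff] at h
  have h1 := h.resolve_left (by decide)
  push Not at h1
  obtain ⟨i, hi, e⟩ := h1
  have e' : iv i = code g := by simpa using e
  exact ⟨i, ⟨hi, g, hg, e'.symm⟩, e'.symm⟩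

/-! ### The search -/

theorem ext_spec {c : ℕ} {k : List ℕ → ℕ → Bool} (l : List ℕ) : ∀ (acc : List ℕ) (nw : ℕ), ext c k l acc nw = true →
    ∃ acc' nw', k acc' nw' = true ∧ (∀ i, i ∈ acc' ↔ i ∈ acc ∨ ∃ b ∈ l, i = pr c b) ∧
      ∀ i, nw'.testBit i = true ↔ nw.testBit i = true ∨ ∃ b ∈ l, i = pr c b := by
  induction l with
  | nil => exact fun acc nw h => ⟨acc, nw, h, by simp, by simp⟩
  | cons b l ih =>
    intro acc nw h
    obtain ⟨acc', nw', h1, h2, h3⟩ := ih (pr c b :: acc) (Nat.lor nw (bit (pr c b))) ((feq _ _).symm.trans h)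
    refine ⟨acc', nw', h1, fun i => ?_, fun i => ?_⟩
    · simp only [h2, List.mem_cons, exists_eq_or_imp]
      tauto
    · have : (bit (pr c b)).testBit i = true ↔ i = pr c b := bit_one
      simp only [h3, Nat.lor_eq, Nat.testBit_or, Bool.or_eq_true, this, List.mem_cons, exists_eq_or_imp, or_assoc]

/-- The invariant of the search. -/
structure Inv (t : Bool) (B : Subgroup PG) (els : List ℕ) (Bm C cand : ℕ) : Prop where
  sub : ∀ i ∈ els, In B i
  cov : ∀ i, In B i → Bm.testBit i = true ∨ cand.testBit i = true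
  bm : ∀ i, Bm.testBit i = true → i ∈ els
  fx1 : ∀ a < 2048, C.testBit (12 * a) = true → ∀ i ∈ els, ac t (iv i) a = a
  fx2 : ∀ a < 2048, (∀ g ∈ B, ac t (code g) a = a) → C.testBit (12 * a) = true
  on : C &&& ON = C

theorem nx2_spec {t : Bool} {ih : List ℕ → ℕ → ℕ → ℕ → Bool} {els els' : List ℕ} {Bm C cand c nw x : ℕ}
    (h : nx2 t ih els Bm C cand c els' nw x = true) : ih els Bm C x = true ∧
      (nw &&& (Bm ||| cand) = nw → ih els' (Bm ||| nw) (C &&& KK t c) (x &&& cm c) = true) := by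
  have k : ∀ a b e : Bool, (Bool.rec false a (Bool.rec true b e) : Bool) = true → a = true ∧ (e = true → b = true) := by
    decide
  exact (k _ _ _ h).imp_right fun h1 e => h1 ((nbeq_iff _ _).2 e)

theorem step {t : Bool} (hB : B ≤ P2) (h2 : ∀ b ∈ B, b * b = 1) {ih : List ℕ → ℕ → ℕ → ℕ → Bool} {els : List ℕ}
    {Bm C cand c : ℕ} (hc : c < 192) (I : Inv t B els Bm C cand) (h : stp t ih els Bm C cand c = true) :
    ∃ els Bm C cand, Inv t B els Bm C cand ∧ ih els Bm C cand = true := by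
  obtain ⟨els', nw, h3, h4, h5⟩ := ext_spec _ _ _ h
  obtain ⟨h6, h7⟩ := nx2_spec h3
  have h8 : ∀ i, nw.testBit i = true ↔ ∃ b ∈ els, i = pr c b := fun i => by
    rw [h5]; exact or_iff_right (by simp)
  have hx : ∀ i, cand.testBit i = true → ¬nw.testBit i = true →
      (Nat.xor cand (Nat.land cand nw)).testBit i = true := fun i a b => by simp [a, b]
  by_cases hI : In B c
  · refine ⟨_, _, _, _, ⟨fun i hi => ?_, fun i hi => ?_, fun i hi => ?_, fun a ha hb i hi => ?_,
      fun a ha hb => ?_, ?_⟩, h7 (Nat.eq_of_testBit_eq fun i => ?_)⟩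
    · rcases (h4 i).1 hi with hi | ⟨b, hb, rfl⟩
      exacts [I.sub i hi, (hI.mul h2 (I.sub b hb)).1]
    · rw [Nat.testBit_or, Nat.testBit_and, Bool.or_eq_true, Bool.and_eq_true]
      by_cases hn : nw.testBit i = true
      · exact .inl (.inr hn)
      · exact (I.cov i hi).imp .inl fun e => ⟨hx i e hn, (hI.mul h2 hi).2.1⟩
    · rw [Nat.testBit_or, Bool.or_eq_true, h8] at hi
      exact (h4 i).2 (hi.imp_left (I.bm i))
    · rw [Nat.testBit_and, Bool.and_eq_true, bit_KK ha] at hb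
      rcases (h4 i).1 hi with hi | ⟨b, hb', rfl⟩
      · exact I.fx1 a ha hb.1 i hi
      · have k := I.fx1 a ha hb.1 b hb'
        rw [← (hI.mul h2 (I.sub b hb')).2.2]
        obtain ⟨-, g, hg, eg⟩ := hI
        obtain ⟨-, f, hf, ef⟩ := I.sub b hb'
        rw [← eg, ← ef, ← code_mul, ac_mul (P2_le (hB hg)) (P2_le (hB hf)) ha, ef, k, eg, hb.2]
    · obtain ⟨-, g, hg, eg⟩ := hI
      rw [Nat.testBit_and, I.fx2 a ha hb, Bool.true_and, bit_KK ha, ← eg]
      exact hb g hg
    · rw [Nat.and_assoc, Nat.and_comm (KK t c), ← Nat.and_assoc, I.on]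
    · rw [Nat.testBit_and, Nat.testBit_or, Bool.and_eq_left_iff_imp, Bool.or_eq_true, h8]
      rintro ⟨b, hb, rfl⟩
      exact I.cov _ (hI.mul h2 (I.sub b hb)).1
  · refine ⟨_, _, _, _, ⟨I.sub, fun i hi => (I.cov i hi).imp_right fun e => hx i e fun hn => ?_, I.bm, I.fx1,
      I.fx2, I.on⟩, h6⟩
    obtain ⟨b, hb, rfl⟩ := (h8 i).1 hn
    exact hI (In.div hc (I.sub b hb) hi)

theorem dfs_spec {t : Bool} (hB : B ≤ P2) (h2 : ∀ b ∈ B, b * b = 1) {fin : List ℕ → ℕ → ℕ → Bool} (n : ℕ) :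
    ∀ (els : List ℕ) (Bm C cand : ℕ), Inv t B els Bm C cand → dfs t fin n els Bm C cand = true →
      ∃ els Bm C, Inv t B els Bm C 0 ∧ fin els Bm C = true := by
  induction n with
  | zero => exact fun _ _ _ _ _ h => absurd h Bool.false_ne_true
  | succ n ih =>
    intro els Bm C cand I h
    replace h : (Bool.rec (Spor.force (low cand) (stp t (dfs t fin n) els Bm C cand)) (fin els Bm C)
      (Nat.beq cand 0) : Bool) = true := h
    by_cases h0 : cand = 0
    · subst h0
      exact ⟨els, Bm, C, I, h⟩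
    · rw [Bool.eq_false_iff.2 fun e => h0 ((nbeq_iff _ _).1 e)] at h
      obtain ⟨e, b, c, d, I', h'⟩ := step hB h2 (low_lt cand) I ((feq _ _).symm.trans h)
      exact ih _ _ _ _ I' h'

theorem run_spec {t : Bool} (hB : B ≤ P2) (h2 : ∀ b ∈ B, b * b = 1) {fin : List ℕ → ℕ → ℕ → Bool}
    (h : run t fin = true) : ∃ els Bm C, Inv t B els Bm C 0 ∧ fin els Bm C = true := by
  have k : ∀ i < 192, Nat.testBit 1 i = true ∨ (Nat.sub (Nat.shiftLeft 1 192) 2).testBit i = true := by
    decide +kernel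
  refine dfs_spec hB h2 200 _ _ _ _ ⟨fun i hi => ?_, fun i hi => k i hi.1, fun i hi => ?_, fun a ha _ i hi => ?_,
    fun a ha _ => bit_ON ha, Nat.and_self _⟩ h
  · rw [List.mem_singleton.1 hi]
    exact ⟨by decide, 1, one_mem _, code_one.trans okI.2.2.symm⟩
  · exact List.mem_singleton.2 (Nat.testBit_one_eq_true_iff_self_eq_zero.1 hi)
  · rw [List.mem_singleton.1 hi, okI.2.2, ac_idc t ha]

/-! ### The leaves -/

section
variable {t : Bool} {els : List ℕ} {Bm C : ℕ}

theorem Inv.all (I : Inv t B els Bm C 0) (hB : B ≤ P2) (h2 : ∀ b ∈ B, b * b = 1) {g : PG} (hg : g ∈ B) :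
    ∃ i, Bm.testBit i = true ∧ i ∈ els ∧ code g = iv i := by
  obtain ⟨i, hi, e⟩ := exists_in hB h2 hg
  have := (I.cov i hi).resolve_right (by simp)
  exact ⟨i, this, I.bm i this, e⟩

theorem Inv.eq (I : Inv t B els Bm C 0) (hB : B ≤ P2) (h2 : ∀ b ∈ B, b * b = 1) {f e : ℕ → ℕ} {n : ℕ}
    {E : Subgroup PG} (hE : ∀ {g}, g ∈ E ↔ ∃ i < n, code g = e i) (hf : ∀ j < n, iv (f j) = e j)
    (h : Bm = msk f n) : B = E := by
  refine le_antisymm (fun g hg => ?_) fun g hg => ?_
  · obtain ⟨i, hi, -, e'⟩ := I.all hB h2 hg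
    obtain ⟨j, hj, rfl⟩ := bit_msk.1 (h ▸ hi)
    exact hE.2 ⟨j, hj, e'.trans (hf j hj)⟩
  · obtain ⟨j, hj, e'⟩ := hE.1 hg
    obtain ⟨-, k, hk, ek⟩ := I.sub _ (I.bm _ (h ▸ bit_msk.2 ⟨j, hj, rfl⟩))
    rwa [code_injective (e'.trans ((hf j hj).symm.trans ek.symm))]

theorem Inv.card (I : Inv t B els Bm C 0) (hB : B ≤ P2) (h2 : ∀ b ∈ B, b * b = 1) : Nat.card B ≤ len els := by
  rw [len_eq, ← List.length_map iv, show Nat.card B = (B : Set PG).ncard from rfl,
    ← Set.ncard_image_of_injective _ code_injective]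
  refine le_trans ?_ (List.toFinset_card_le _)
  rw [← Set.ncard_coe_finset]
  refine Set.ncard_le_ncard ?_ (Finset.finite_toSet _)
  rintro _ ⟨g, hg, rfl⟩
  obtain ⟨i, -, hi, e⟩ := I.all hB h2 hg
  exact List.mem_toFinset.2 (List.mem_map.2 ⟨i, hi, e.symm⟩)

theorem Inv.not_tst (I : Inv t B els Bm C 0) (hB : B ≤ P2) (h2 : ∀ b ∈ B, b * b = 1) {f : PG} {i : ℕ}
    (e : code f = iv i) (h : bad t C (Nat.mul (len els) (Nat.mod C 4095)) i = true) : ¬Tst t B f := by
  have fin : ∀ p : ℕ → Prop, {a | a < 2048 ∧ p a}.Finite := fun p => (Set.finite_lt_nat 2048).subset fun _ h => h.1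
  have h1 : len els * (C % 4095) < (KK t i &&& ON) % 4095 * ((C &&& LL t i) % 4095) := Nat.le_of_ble_eq_true h
  rw [pop I.on, pop (x := KK t i &&& ON) (by rw [Nat.and_assoc, Nat.and_self]),
    pop (x := C &&& LL t i) (by rw [Nat.and_assoc, Nat.and_comm (LL t i), ← Nat.and_assoc, I.on])] at h1
  refine fun h3 => absurd (h1.trans_le ((Nat.mul_le_mul ?_ ?_).trans (h3.trans (Nat.mul_le_mul (I.card hB h2) ?_))))
    (lt_irrefl _)
  · refine Set.ncard_le_ncard (fun a ha => ⟨ha.1, ?_⟩) (fin _)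
    have := ha.2
    rw [Nat.testBit_and, Bool.and_eq_true, bit_KK ha.1] at this
    rw [e, this.1]
  · refine Set.ncard_le_ncard (fun a ha => ⟨ha.1, ?_⟩) (fin _)
    have := ha.2
    rw [Nat.testBit_and, Bool.and_eq_true] at this
    refine ⟨fun b hb => ?_, e ▸ bit_LL this.2⟩
    obtain ⟨j, -, hj, e'⟩ := I.all hB h2 hb
    rw [e', I.fx1 a ha.1 this.1 j hj]
  · exact Set.ncard_le_ncard (fun a ha => ⟨ha.1, I.fx2 a ha.1 ha.2⟩) (fin _)

end

end ClsK

open ClsK

theorem clsA {B : Subgroup PG} (hB : B ≤ P2) (h2 : ∀ b ∈ B, b * b = 1) {f : PG} (hf : f ∈ B) (h1 : f ≠ 1)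
    (h : Tst true B f) : B = ES ∨ B = ET := by
  obtain ⟨els, Bm, C, I, k⟩ := run_spec hB h2 runA
  rw [finA, bor_iff, bor_iff, nbeq_iff, nbeq_iff, Spor.allL_iff] at k
  rcases k with k | k | k
  · exact .inl (I.eq hB h2 mem_ES (fun j hj => (okI.1 j hj).2.1) k)
  · exact .inr (I.eq hB h2 mem_ET (fun j hj => (okI.1 j hj).2.2.2) k)
  · obtain ⟨i, -, hi, e⟩ := I.all hB h2 hf
    rcases (bor_iff _ _).1 (k i hi) with k | k
    · rw [(nbeq_iff _ _).1 k, okI.2.2, ← code_one] at e
      exact absurd (code_injective e) h1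
    · exact absurd h (I.not_tst hB h2 e k)

theorem clsB {B : Subgroup PG} (hB : B ≤ P2) (h2 : ∀ b ∈ B, b * b = 1) (h0 : B ≠ ⊥)
    (h : ∀ f ∈ B, f ≠ 1 → Tst false B f) : B = EE ∨ B = ET := by
  obtain ⟨els, Bm, C, I, k⟩ := run_spec hB h2 runB
  rw [finB, bor_iff, bor_iff, bor_iff, nbeq_iff, nbeq_iff, nbeq_iff, anyL_iff] at k
  rcases k with k | k | k | ⟨i, hi, k⟩
  · refine absurd ((Subgroup.eq_bot_iff_forall _).2 fun g hg => ?_) h0
    obtain ⟨i, hi, -, e⟩ := I.all hB h2 hg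
    rw [k] at hi
    rw [Nat.testBit_one_eq_true_iff_self_eq_zero.1 hi, okI.2.2, ← code_one] at e
    exact code_injective e
  · exact .inl (I.eq hB h2 mem_EE (fun j hj => (okI.2.1 j hj).2) k)
  · exact .inr (I.eq hB h2 mem_ET (fun j hj => (okI.1 j hj).2.2.2) k)
  · rw [band_iff, blt_iff] at k
    obtain ⟨hi', f, hf, e⟩ := I.sub i hi
    refine absurd (h f hf fun e' => ?_) (I.not_tst hB h2 e k.2)
    rw [e', code_one] at e
    exact k.1.ne' ((tab hi').2.2.1 e.symm)

end Cfsg.Agent.R24
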