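import Mathlib
import Cfsg.Agent.R24.Defs

/-! Finite checks in `S6`. -/

set_option autoImplicit false

namespace Cfsg.Agent.R24.Fi1

open Equiv

abbrev P6 := Perm (Fin 6)
def r3 : P6 := swap 1 4 * swap 1 3
def kl : Finset P6 := {1, swap 1 3 * swap 4 5, swap 1 4 * swap 3 5, swap 1 5 * swap 3 4}

theorem d_tri : ∀ σ : P6, Perm.sign σ = 1 → σ ≠ 1 → ∃ i j k, uc (σ i) (σ j) ≠ uc i j ∧ uc (σ j) (σ k) ≠ uc j k ∧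
    uc (σ i) (σ k) ≠ uc i k := by decide +kernel
set_option synthInstance.maxSize 1000 in
theorem d_kl : ∀ σ : P6, Perm.sign σ = 1 → uc (σ 0) (σ 2) = uc 0 2 → σ ∈ kl ∨ ((σ * σ) ^ 3 = 1 ∧ σ * σ ≠ 1) ∨
    ((σ * (r3 * σ * r3⁻¹)) ^ 3 = 1 ∧ σ * (r3 * σ * r3⁻¹) ≠ 1) := by decide +kernel
theorem d_four : ∀ a ∈ kl, ∀ b ∈ kl, ∀ c ∈ kl, a ≠ 1 → b ≠ 1 → a * b ≠ 1 → c = 1 ∨ c = a ∨ c = b ∨ c = a * b := by
  decide +kernel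
theorem d_card : (Finset.univ.filter fun σ : P6 => Perm.sign σ = 1 ∧ uc (σ 0) (σ 2) = uc 0 2).card = 24 := by
  decide +kernel
theorem d_tr : ∀ i j : Fin 6, uc i j = uc 0 0 ∨ ∃ σ : P6, Perm.sign σ = 1 ∧ uc (σ 1) (σ 4) = uc i j := by
  decide +kernel
theorem d_r3 : Perm.sign r3 = 1 ∧ r3 0 = 0 ∧ r3 2 = 2 ∧ r3 1 = 3 ∧ r3 3 = 4 ∧ r3 4 = 1 := by decide +kernel
theorem d_three : ∀ p : Fin 3, ∀ σ ρ : Perm (Fin 3), σ p = p → ρ p = p → σ = 1 ∨ ρ = 1 ∨ σ * ρ = 1 := by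
  decide +kernel
def rep : Finset (Fin 6 × Fin 6) := Finset.univ.filter fun p => p.1 < p.2 ∨ p = (0, 0)
theorem d_rep : rep.card = 16 ∧ (∀ i j, ∃ p ∈ rep, uc p.1 p.2 = uc i j) ∧
    ∀ p ∈ rep, ∀ q ∈ rep, uc p.1 p.2 = uc q.1 q.2 → p = q := by decide +kernel

end Cfsg.Agent.R24.Fi1
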