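import Mathlib
import Cfsg.Agent.R24.Bas
import Cfsg.Agent.Spor.MB.N11
import Cfsg.Agent.Perm.Witt

/-! Faithful actions of `M24` on groups of order `2 ^ 11`: stabilisers. -/

set_option autoImplicit false

namespace Cfsg.Agent.R24

open Cfsg.Agent.Spor Cfsg.Agent.Inv.Fz Subgroup
open Cfsg.Agent.Spor.MB hiding cj
open scoped Pointwise

namespace Mod1

open MulAction

section Pts

variable {H : Subgroup PG} {a b : GolayPt} {x : PG}

theorem orb_cases (hH : H ≤ M24) (hx : x ∈ H) (ox : orderOf x = 11) (h7 : 7 ∣ Nat.card H)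
    (h23 : ¬ 23 ∣ Nat.card H) (hab : fixSet x = {a, b}) :
    (orbF H a).card = 1 ∨ (b ∈ orbF H a ∧ (orbF H a).card = 2) ∨ (orbF H a).card = 24 := by
  obtain ⟨y, hy, oy⟩ := exists_orderOf_eq (by norm_num) h7
  have h1 := card_modEq_fix (by norm_num) oy (smul_orbF a y hy)
  have h2 := card_modEq_fix (by norm_num) ox (smul_orbF a _ hx)
  have h3 : (orbF H a ∩ fixSet y).card ≤ 3 :=
    (Finset.card_le_card Finset.inter_subset_right).trans (card_fixSet_seven (hH hy) oy).le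
  have h4 := card_le_24 (orbF H a)
  have h5 : (orbF H a).card ≠ 23 := fun e => h23 (e ▸ card_orbF_dvd H a)
  have ha := self_mem_orbF H a
  unfold Nat.ModEq at h1 h2
  by_cases hb : b ∈ orbF H a
  · rw [Finset.inter_eq_right.2 (by rw [hab]; exact Finset.insert_subset ha (by simpa using hb)),
      card_fixSet_eleven (hH hx) ox] at h2
    have : (orbF H a).card = 2 ∨ (orbF H a).card = 24 := by omega
    tauto
  · rw [hab, Finset.inter_insert_of_mem ha, Finset.inter_singleton_of_notMem hb] at h2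
    simp only [insert_empty_eq, Finset.card_singleton] at h2
    omega

theorem fix_other (hH : H ≤ M24) (hx : x ∈ H) (ox : orderOf x = 11) (h7 : 7 ∣ Nat.card H)
    (h23 : ¬ 23 ∣ Nat.card H) (hab : fixSet x = {a, b}) (ha : ∀ g ∈ H, g a = a) :
    ∀ g ∈ H, g b = b := by
  by_cases h : a ∈ orbF H b
  · exact eq_of_mem_orbF ha h ▸ ha
  have := card_lt_24 h
  rcases orb_cases hH hx ox h7 h23 (hab.trans (Finset.pair_comm a b)) with e | e | e
  exacts [fix_of_card_orbF e, (h e.1).elim, by omega]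

theorem fix_duad (hH : H ≤ M24) (hx : x ∈ H) (ox : orderOf x = 11) (h7 : 7 ∣ Nat.card H)
    (h23 : ¬ 23 ∣ Nat.card H) : ∀ g ∈ H, g • fixSet x = fixSet x := by
  obtain ⟨a, b, ne, hab⟩ := Finset.card_eq_two.1 (card_fixSet_eleven (hH hx) ox)
  rcases orb_cases hH hx ox h7 h23 hab with e | e | e
  · intro g hg
    have h1 := fix_of_card_orbF e
    have h2 := fix_other hH hx ox h7 h23 hab h1
    rw [hab, Finset.smul_finset_insert, Finset.smul_finset_singleton, Equiv.Perm.smul_def,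
      Equiv.Perm.smul_def, h1 g hg, h2 g hg]
  · rw [hab, Finset.eq_of_subset_of_card_le
      (Finset.insert_subset (self_mem_orbF H a) (Finset.singleton_subset_iff.2 e.1))
      (by rw [e.2, Finset.card_pair ne])]
    exact smul_orbF a
  exfalso
  have hu : orbF H a = Finset.univ := Finset.eq_univ_of_card _ (e.trans card_golayPt.symm)
  have k7 : ∀ q, 7 ∣ Nat.card ↥(H ⊓ stabilizer PG q) := fun q =>
    (Nat.Coprime.dvd_mul_left (by norm_num)).1 (card_of_trans hu q ▸ h7)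
  have key : ∀ {a b}, fixSet x = {a, b} → ∀ g ∈ H, g a = a → g b = b := fun {a b} hab g hg e =>
    fix_other (H := H ⊓ stabilizer PG a) (inf_le_left.trans hH)
      ⟨hx, mem_fixSet.1 (by rw [hab]; exact Finset.mem_insert_self _ _)⟩ ox (k7 a)
      (not_dvd_of_le inf_le_left h23) hab (fun _ h => h.2) g ⟨hg, e⟩
  have hba := hab.trans (Finset.pair_comm a b)
  obtain ⟨y, hy, oy⟩ := exists_orderOf_eq (by norm_num) (k7 a)
  have h3 := card_fixSet_seven (hH hy.1) oy
  have hs : ({a, b} : Finset GolayPt) ⊆ fixSet y := Finset.insert_subset (mem_fixSet.2 hy.2)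
    (Finset.singleton_subset_iff.2 (mem_fixSet.2 (key hab y hy.1 hy.2)))
  obtain ⟨r, hr, hr'⟩ := Finset.exists_mem_notMem_of_card_lt_card
    (s := {a, b}) (t := fixSet y) (by rw [h3, Finset.card_pair ne]; norm_num)
  have e3 : insert r {a, b} = fixSet y := Finset.eq_of_subset_of_card_le
    (Finset.insert_subset hr hs) (by rw [h3, Finset.card_insert_of_notMem hr', Finset.card_pair ne])
  obtain ⟨k, hk, rfl⟩ := mem_orbF.1 (show r ∈ orbF H a by rw [hu]; exact Finset.mem_univ r)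
  have cj : ∀ z ∈ H, k⁻¹ * z * k ∈ H := fun z hz => mul_mem (mul_mem (inv_mem hk) hz) hk
  have ap : ∀ (z : PG) p, (k⁻¹ * z * k) p = p ↔ k p ∈ fixSet z := fun z p => by
    rw [mem_fixSet, Equiv.Perm.mul_apply, Equiv.Perm.mul_apply, Equiv.Perm.inv_eq_iff_eq]
  have h4 := (ap y b).1 (key hab _ (cj y hy.1) ((ap y a).2 hr))
  rw [← e3, Finset.mem_insert, ← hab] at h4
  rw [← hab] at hr'
  rcases h4 with h4 | h4
  · exact ne (k.injective h4).symm
  · exact hr' ((ap _ a).1 (key hba _ (cj _ hx) ((ap _ b).2 h4)))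

end Pts

end Mod1

open Mod1 MulAction

/-- A subgroup of order divisible by 7 and 11 and prime to 23 fixes a point or a duad. -/
theorem fix_of_77 {H : Subgroup PG} (hH : H ≤ M24) (hx : x11 ∈ H) (h7 : 7 ∣ Nat.card H) (h23 : ¬ 23 ∣ Nat.card H) :
    ∀ g ∈ H, g • unmask 8388609 = unmask 8388609 := by
  rw [← fixSet_x11]
  exact fix_duad hH hx orderOf_x11 h7 h23

namespace Mod1

theorem card_duad : Nat.card ↥(M24 ⊓ stabilizer PG (unmask 8388609)) = 887040 := by
  have := card_stab_small (s := unmask 8388609) (k := 2) (by norm_num) (by rw [card_unmask]; decide +kernel)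
  rw [show Nat.choose 24 2 = 276 by decide] at this
  omega

theorem card_dvd_of_77 {H : Subgroup PG} (hH : H ≤ M24) (h11 : 11 ∣ Nat.card H) (h7 : 7 ∣ Nat.card H)
    (h23 : ¬ 23 ∣ Nat.card H) : Nat.card H ∣ 887040 := by
  obtain ⟨x, hx, ox⟩ := exists_orderOf_eq (by norm_num) h11
  obtain ⟨k, hk, e⟩ := exists_conj_mem_zpowers_x11 (hH hx) ox
  have h1 : x11 ∈ conjS k H := by
    refine (zpowers_le.2 (conj_mem_conjS.2 hx) :) ?_
    rw [zpowers_eq_of_mem e (by rw [orderOf_conj', ox, orderOf_x11])]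
    exact mem_zpowers _
  rw [← card_conjS k, ← card_duad]
  exact card_dvd_of_le fun g hg => ⟨conjS_le hk hH hg, fix_of_77 (conjS_le hk hH) h1
    (by rwa [card_conjS]) (by rwa [card_conjS]) g hg⟩

section Act

variable {A : Type*} [Group A] [Finite A] [MulDistribMulAction M24 A]

/-- The stabiliser as a group of permutations. -/
def St (u : A) : Subgroup PG := (stabilizer M24 u).map M24.subtype

omit [Finite A] in
theorem St_le (u : A) : St u ≤ M24 := map_subtype_le _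

omit [Finite A] in
theorem mem_St {u : A} {g : M24} : (g : PG) ∈ St u ↔ g • u = u :=
  mem_map_iff_mem M24.subtype_injective

omit [Finite A] in
theorem card_orb (u : A) : (orbit M24 u).ncard * Nat.card (St u) = 244823040 := by
  rw [St, card_map_of_injective M24.subtype_injective, ← index_stabilizer, index_mul_card, card_M24]

theorem modEq {x : M24} {p : ℕ} (hp : p.Prime) (hx : orderOf (x : PG) = p) (S : Set A)
    (hS : ∀ a ∈ S, x • a ∈ S) : S.ncard ≡ {a ∈ S | x • a = a}.ncard [MOD p] :=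
  Perm.ncard_modEq_fixed_of_pow (k := 1) hp
    (by rw [pow_one, ← hx, orderOf_coe, pow_orderOf_eq_one]) S S.toFinite hS

omit [MulDistribMulAction M24 A] in
theorem card_sub (hA : Nat.card A = 2 ^ 11) (U : Subgroup A) (h : U ≠ ⊤) :
    ∃ k ≤ 10, (U : Set A).ncard = 2 ^ k := by
  obtain ⟨k, hk, e⟩ := (Nat.dvd_prime_pow Nat.prime_two).1 (hA ▸ U.card_subgroup_dvd_card)
  refine ⟨k, Nat.le_of_lt_succ (hk.lt_of_ne fun e' => h ?_), e⟩
  exact eq_top_of_card_eq _ (by rw [e, e', hA])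

variable [FaithfulSMul M24 A] (hA : Nat.card A = 2 ^ 11)
include hA

theorem card_fix {x : M24} {p : ℕ} (hp : p.Prime) (hx : orderOf (x : PG) = p) :
    ∃ k ≤ 10, {a : A | x • a = a}.ncard = 2 ^ k ∧ 2 ^ 11 ≡ 2 ^ k [MOD p] := by
  obtain ⟨k, hk, e⟩ := card_sub hA ((MulDistribMulAction.toMonoidHom A x).eqLocus (MonoidHom.id A))
    fun e => hp.ne_one (by
      rw [← hx, eq_of_smul_eq_smul (m₁ := x) (m₂ := 1) (α := A) fun a => by
        rw [one_smul]; exact (eq_top_iff' _).1 e a]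
      simp)
  have h1 := modEq hp hx (Set.univ : Set A) fun _ _ => trivial
  simp only [Set.ncard_univ, hA, Set.mem_univ, true_and] at h1
  exact ⟨k, hk, e, by rwa [show {a : A | x • a = a}.ncard = 2 ^ k from e] at h1⟩

theorem fix23 {x : M24} (hx : orderOf (x : PG) = 23) {a : A} (h : x • a = a) : a = 1 := by
  obtain ⟨k, hk, e, h1⟩ := card_fix hA (by norm_num) hx
  have : k = 0 := by interval_cases k <;> simp_all [Nat.ModEq]
  rw [this, pow_zero] at e
  exact (Set.ncard_le_one (Set.toFinite _)).1 e.le _ h _ (smul_one x)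

theorem fix11 {x : M24} (hx : orderOf (x : PG) = 11) :
    ∃ v : A, v ≠ 1 ∧ x • v = v ∧ ∀ w : A, x • w = w → w ≠ 1 → w = v := by
  obtain ⟨k, hk, e, h1⟩ := card_fix hA (by norm_num) hx
  have : k = 1 := by interval_cases k <;> simp_all [Nat.ModEq]
  rw [this, pow_one] at e
  obtain ⟨a, b, ne, e⟩ := Set.ncard_eq_two.1 e
  have h2 : ∀ w : A, x • w = w ↔ w = a ∨ w = b := fun w => Set.ext_iff.1 e w
  rcases (h2 1).1 (smul_one x) with rfl | rfl
  · exact ⟨b, ne.symm, (h2 b).2 (.inr rfl), fun w h => ((h2 w).1 h).resolve_left⟩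
  · exact ⟨a, ne, (h2 a).2 (.inl rfl), fun w h => ((h2 w).1 h).resolve_right⟩

theorem not_23 {u : A} (h1 : u ≠ 1) : ¬ 23 ∣ Nat.card (St u) := fun h => by
  obtain ⟨x, hx, ox⟩ := exists_orderOf_eq (by norm_num) h
  exact h1 (fix23 hA (x := ⟨x, St_le u hx⟩) ox (mem_St.1 hx))

theorem dvd_orb {u : A} (h1 : u ≠ 1) : 23 ∣ (orbit M24 u).ncard :=
  ((Nat.Prime.dvd_mul (by norm_num)).1 (by rw [card_orb]; norm_num)).resolve_right (not_23 hA h1)

omit hA [Finite A] [FaithfulSMul M24 A] in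
theorem ne_one {u w : A} (h1 : u ≠ 1) (h : w ∈ orbit M24 u) : w ≠ 1 := by
  obtain ⟨g, rfl⟩ := h
  exact fun e => h1 (smul_left_cancel g (e.trans (smul_one g).symm))

theorem orb_mod {u : A} (h1 : u ≠ 1) (h : 11 ∣ Nat.card (St u)) : (orbit M24 u).ncard % 11 = 1 := by
  obtain ⟨x, hx, ox⟩ := exists_orderOf_eq (by norm_num) h
  obtain ⟨v, -, -, hv⟩ := fix11 hA (x := ⟨x, St_le u hx⟩) ox
  have h2 := modEq (x := ⟨x, St_le u hx⟩) (by norm_num) ox (orbit M24 u) fun _ h => mem_orbit_of_mem_orbit _ h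
  have hu := mem_St.1 (show ((⟨x, St_le u hx⟩ : M24) : PG) ∈ St u from hx)
  rwa [show {a ∈ orbit M24 u | (⟨x, St_le u hx⟩ : M24) • a = a} = {u} from
    Set.eq_singleton_iff_unique_mem.2 ⟨⟨mem_orbit_self u, hu⟩, fun w hw =>
      (hv w hw.2 (ne_one h1 hw.1)).trans (hv u hu h1).symm⟩, Set.ncard_singleton] at h2

omit [FaithfulSMul M24 A] [MulDistribMulAction M24 A] in
theorem ncard_le {S : Set A} (h : (1 : A) ∉ S) : S.ncard ≤ 2047 := by
  have := Set.ncard_le_card (insert 1 S)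
  rw [Set.ncard_insert_of_notMem h, hA] at this
  omega

theorem stab {u : A} (h1 : u ≠ 1) (hP : P2 ≤ St u) : St u = SY true ∨ St u = SY false := by
  have e := card_orb u
  have hn := ncard_le hA (S := orbit M24 u) fun h => ne_one h1 h rfl
  have h2 : 2 ^ 10 ∣ Nat.card (St u) := card_P2 ▸ card_dvd_of_le hP
  obtain ⟨k, hk⟩ := dvd_orb hA h1
  have h11 : ¬ 11 ∣ Nat.card (St u) := fun h => by
    have h3 := orb_mod hA h1 h
    have h4 := h2.trans (card_dvd_of_77 (St_le u) h (by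
      refine ((Nat.Prime.dvd_mul (by norm_num)).1
        (show 7 ∣ _ * _ by rw [e]; norm_num)).resolve_left fun h7 => ?_
      obtain ⟨m, hm⟩ := h2
      have h5 : k ∣ 10395 := ⟨m, by rw [hk, hm] at e; nlinarith⟩
      have h6 : k = 56 := by omega
      rw [h6] at h5
      norm_num at h5) (not_23 hA h1))
    norm_num at h4
  have key : ∀ t, St u ≤ SY t → Nat.card (SY t) ≤ 3 * Nat.card (St u) → ¬ 2 ^ 11 ∣ Nat.card (SY t) →
      Nat.card (SY t) ≠ 3 * Nat.card (St u) → St u = SY t := fun t h h3 h4 h5 => by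
    obtain ⟨j, hj⟩ := card_dvd_of_le h
    obtain ⟨m, hm⟩ := h2
    have h6 : 0 < Nat.card (St u) := Nat.card_pos
    have h7 : j ≤ 3 := by nlinarith
    have h8 : 0 < Nat.card (SY t) := Nat.card_pos
    refine eq_of_le_of_card_ge h ?_
    interval_cases j <;> omega
  rcases over_P2 (St_le u) (gens_gP2.clo.mono hP) h11 (not_23 hA h1) with h | h | h
  · refine .inl (key true (fun g hg => ⟨St_le u hg, h g hg⟩) ?_ ?_ fun h => ?_) <;>
      rw [card_SY_true] at *
    · nlinarith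
    · norm_num
    · rw [show Nat.card (St u) = 107520 by omega] at e; omega
  · refine .inr (key false (fun g hg => ⟨St_le u hg, h g hg⟩) ?_ ?_ fun h => ?_) <;>
      rw [card_SY_false] at *
    · nlinarith
    · norm_num
    · rw [show Nat.card (St u) = 46080 by omega] at e; omega
  · nlinarith

omit [FaithfulSMul M24 A] in
theorem add_le {u w : A} (hu : u ≠ 1) (hw : w ≠ 1) (h : Nat.card (St u) ≠ Nat.card (St w)) :
    (orbit M24 u ∪ orbit M24 w).ncard = (orbit M24 u).ncard + (orbit M24 w).ncard ∧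
      (orbit M24 u).ncard + (orbit M24 w).ncard ≤ 2047 := by
  have e := Set.ncard_union_eq ((orbit.eq_or_disjoint (G := M24) u w).resolve_left fun e => h (by
    have h1 := card_orb u
    rw [e, ← card_orb w] at h1
    exact Nat.eq_of_mul_eq_mul_left ((Set.ncard_pos (Set.toFinite _)).2 ⟨w, mem_orbit_self w⟩) h1))
  exact ⟨e, e ▸ ncard_le hA fun h => h.elim (fun h => ne_one hu h rfl) fun h => ne_one hw h rfl⟩

omit hA [Finite A] [FaithfulSMul M24 A] in
theorem ne_one_of_card {u : A} (h : Nat.card (St u) ≠ 244823040) : u ≠ 1 := fun e => h (by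
  rw [← card_M24]
  exact congrArg (fun H : Subgroup PG => Nat.card H)
    (le_antisymm (St_le u) fun g hg => (mem_St (g := ⟨g, hg⟩)).2 (by rw [e, smul_one])))

theorem duad {u : A} (h1 : Nat.card (St u) = 138240) :
    (∃ v : A, St v = M24 ⊓ stabilizer PG (unmask 8388609)) ∧
      ∀ w : A, w ≠ 1 → Nat.card (St w) = 138240 ∨ Nat.card (St w) = 887040 := by
  obtain ⟨v, v1, hv, -⟩ := fix11 hA (x := ⟨x11, x11_mem⟩) orderOf_x11
  have u1 := ne_one_of_card (u := u) (by omega)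
  have hx : x11 ∈ St v := (mem_St (g := ⟨x11, x11_mem⟩)).2 hv
  have h11 : 11 ∣ Nat.card (St v) := orderOf_x11 ▸ (St v).orderOf_dvd_natCard hx
  obtain ⟨h2, h3⟩ := add_le hA u1 v1 (by omega)
  have eu := card_orb u
  have ev := card_orb v
  have h4 := orb_mod hA v1 h11
  have h5 := dvd_orb hA v1
  rw [h1] at eu
  have h6 : St v ≤ M24 ⊓ stabilizer PG (unmask 8388609) := fun g hg => ⟨St_le v hg,
    fix_of_77 (St_le v) hx (((Nat.Prime.dvd_mul (by norm_num)).1
      (show 7 ∣ _ * _ by rw [ev]; norm_num)).resolve_left (by omega)) (not_23 hA v1) g hg⟩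
  have h7 := card_le_of_le h6
  rw [card_duad] at h7
  have h8 : (orbit M24 v).ncard = 276 := by
    by_contra h8
    rw [show (orbit M24 v).ncard = 23 by omega] at ev
    omega
  rw [h8] at ev
  refine ⟨⟨v, eq_of_le_of_card_ge h6 (by rw [card_duad]; omega)⟩, fun w hw => ?_⟩
  have h9 : insert 1 (orbit M24 u ∪ orbit M24 v) = Set.univ := Set.eq_of_subset_of_ncard_le
    (Set.subset_univ _) (by
      rw [Set.ncard_insert_of_notMem
        fun h => h.elim (fun h => ne_one u1 h rfl) fun h => ne_one v1 h rfl, Set.ncard_univ, hA]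
      omega)
  have ew := card_orb w
  rcases (h9 ▸ Set.mem_univ w : w ∈ insert 1 (orbit M24 u ∪ orbit M24 v)) with h | h | h
  · exact (hw h).elim
  · rw [orbit_eq_iff.2 h, show (orbit M24 u).ncard = 1771 by omega] at ew; omega
  · rw [orbit_eq_iff.2 h, h8] at ew; omega

end Act

variable {G : Type*} [Group G] {V : Subgroup G} {σ : normalizer (V : Set G) →* PG}

theorem exists_act (h : Md V σ) : ∃ _ : MulDistribMulAction M24 V, FaithfulSMul M24 V ∧
    (∀ g : M24, ∃ n : normalizer (V : Set G), σ n = g ∧ ∀ v : V, ((g • v : V) : G) = n * v * (n : G)⁻¹) ∧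
    (∀ n : normalizer (V : Set G), ∃ g : M24, ∀ v : V, ((g • v : V) : G) = n * v * (n : G)⁻¹) ∧
    ∀ u : V, Sb σ u = St u := by
  have hm : ∀ n, σ n ∈ M24 := fun n => h.range ▸ ⟨n, rfl⟩
  have hs : Function.Surjective (σ.codRestrict M24 hm) := fun g => by
    obtain ⟨n, e⟩ : (g : PG) ∈ σ.range := by rw [h.range]; exact g.2
    exact ⟨n, Subtype.ext e⟩
  let ρ := (σ.codRestrict M24 hm).liftOfSurjective hs ⟨V.normalizerMonoidHom, fun n hn => by
    rw [normalizerMonoidHom_ker]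
    have h1 := (h.ker n).1 (congrArg Subtype.val hn)
    intro v hv
    change v * n = n * v
    rw [← inv_eq_of_mul_eq_one_right (h.sq _ (mul_mem hv h1)), mul_inv_rev,
      inv_eq_of_mul_eq_one_right (h.sq _ hv), inv_eq_of_mul_eq_one_right (h.sq _ h1)]⟩
  let _ := MulDistribMulAction.compHom V ρ
  have e : ∀ (n : normalizer (V : Set G)) (v : V),
      (((⟨σ n, hm n⟩ : M24) • v : V) : G) = n * v * (n : G)⁻¹ := fun n v =>
    congrArg (fun f : MulAut V => (f v : G)) (MonoidHom.liftOfRightInverse_comp_apply _ _ _ _ n)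
  refine ⟨_, ⟨fun {a b} hab => ?_⟩, fun g => ?_, fun n => ⟨_, e n⟩, fun u => ?_⟩
  · obtain ⟨n, hn⟩ := hs (a⁻¹ * b)
    rw [← inv_mul_eq_one, ← hn]
    refine Subtype.ext ((h.ker n).2 (h.cent fun v hv => ?_))
    rw [eq_comm, ← mul_inv_eq_iff_eq_mul, ← e n ⟨v, hv⟩, show (⟨σ n, hm n⟩ : M24) = _ from hn,
      mul_smul, ← hab, inv_smul_smul]
  · obtain ⟨n, rfl⟩ := hs g
    exact ⟨n, rfl, e n⟩
  · ext g
    constructor
    · rintro ⟨n, hn, rfl⟩
      refine (mem_St (g := ⟨σ n, hm n⟩)).2 (Subtype.ext ?_)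
      rw [e, mul_inv_eq_iff_eq_mul]
      exact mem_centralizer_singleton_iff.1 hn
    · rintro ⟨g, hg, rfl⟩
      obtain ⟨n, rfl⟩ := hs g
      refine ⟨n, mem_centralizer_singleton_iff.2 ?_, rfl⟩
      exact mul_inv_eq_iff_eq_mul.1 ((e n u).symm.trans (congrArg Subtype.val hg))

end Mod1

variable {G : Type*} [Group G] [Finite G]

variable {V : Subgroup G} {σ : normalizer (V : Set G) →* PG}

theorem Md.card_class (h : Md V σ) {u : G} (hu : u ∈ V) :
    {w | ∃ n ∈ normalizer (V : Set G), n * u * n⁻¹ = w}.ncard * Nat.card (Sb σ u) = 244823040 := by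
  obtain ⟨_, -, h1, h2, h3⟩ := exists_act h
  rw [show Sb σ u = _ from h3 ⟨u, hu⟩, ← card_orb (⟨u, hu⟩ : V),
    ← Set.ncard_image_of_injective _ V.subtype_injective]
  congr 2
  ext w
  constructor
  · rintro ⟨n, hn, rfl⟩
    obtain ⟨g, e⟩ := h2 ⟨n, hn⟩
    exact ⟨_, ⟨g, rfl⟩, e _⟩
  · rintro ⟨_, ⟨g, rfl⟩, rfl⟩
    obtain ⟨n, -, e⟩ := h1 g
    exact ⟨n, n.2, (e ⟨u, hu⟩).symm⟩

theorem Md.eq_of_norm (h : Md V σ) {U : Subgroup G} (hU : U ≤ V) (h0 : U ≠ ⊥)
    (hn : normalizer (V : Set G) ≤ normalizer (U : Set G)) : U = V := by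
  obtain ⟨_, _, h1, -, -⟩ := exists_act h
  by_contra ne
  obtain ⟨k, hk, e⟩ := card_sub h.card (U.subgroupOf V) fun e => ne (hU.antisymm (subgroupOf_eq_top.1 e))
  obtain ⟨n, -, en⟩ := h1 ⟨x23, x23_mem⟩
  have h2 := modEq (x := ⟨x23, x23_mem⟩) (by norm_num) orderOf_x23 (U.subgroupOf V : Set V) fun a ha => by
    have := (mem_normalizer_iff.1 (hn n.2) (a : G)).1 ha
    rwa [← en] at this
  rw [e, show {a ∈ (U.subgroupOf V : Set V) | (⟨x23, x23_mem⟩ : M24) • a = a} = {1} from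
    Set.eq_singleton_iff_unique_mem.2 ⟨⟨one_mem _, smul_one _⟩, fun w hw =>
      fix23 h.card orderOf_x23 hw.2⟩, Set.ncard_singleton] at h2
  have : k = 0 := by interval_cases k <;> simp_all [Nat.ModEq]
  rw [this, pow_zero] at e
  exact h0 (by rw [← inf_eq_left.2 hU, ← subgroupOf_map_subtype, card_eq_one.1 e, Subgroup.map_bot])

theorem Md.exists_fix (h : Md V σ) : ∃ u ∈ V, u ≠ 1 ∧ P2 ≤ Sb σ u := by
  obtain ⟨_, -, -, -, h3⟩ := exists_act h
  have hP : IsPGroup 2 (P2.subgroupOf M24) :=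
    (IsPGroup.of_card card_P2).comap_subtype
  obtain ⟨u, hu, h1⟩ := hP.exists_fixed_point_of_prime_dvd_card_of_fixed_point V
    (by rw [h.card]; norm_num) (a := 1) fun g => smul_one g
  exact ⟨u, u.2, fun e => h1 (Subtype.ext e.symm), fun g hg => h3 u ▸
    (mem_St (g := ⟨g, P2_le hg⟩)).2 (hu ⟨⟨g, P2_le hg⟩, hg⟩)⟩

theorem Md.stab (h : Md V σ) {u : G} (hu : u ∈ V) (h1 : u ≠ 1) (hP : P2 ≤ Sb σ u) :
    Sb σ u = SY true ∨ Sb σ u = SY false := by
  obtain ⟨_, _, -, -, h3⟩ := exists_act h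
  rw [show Sb σ u = _ from h3 ⟨u, hu⟩] at hP ⊢
  exact Mod1.stab h.card (fun e => h1 (congrArg Subtype.val e)) hP

theorem Md.not_both (h : Md V σ) {u w : G} (hu : u ∈ V) (hw : w ∈ V) (h1 : Sb σ u = SY true)
    (h2 : Sb σ w = SY false) : False := by
  obtain ⟨_, _, -, -, h3⟩ := exists_act h
  have e1 : Nat.card (St (⟨u, hu⟩ : V)) = 322560 := by rw [← h3, h1, card_SY_true]
  have e2 : Nat.card (St (⟨w, hw⟩ : V)) = 138240 := by rw [← h3, h2, card_SY_false]
  have h4 := (add_le h.card (ne_one_of_card (u := (⟨u, hu⟩ : V)) (by omega))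
    (ne_one_of_card (u := (⟨w, hw⟩ : V)) (by omega)) (by omega)).2
  have h5 := card_orb (⟨u, hu⟩ : V)
  have h6 := card_orb (⟨w, hw⟩ : V)
  rw [e1] at h5
  rw [e2] at h6
  omega

theorem Md.duad (h : Md V σ) {u : G} (hu : u ∈ V) (h1 : Sb σ u = SY false) :
    (∃ v ∈ V, Sb σ v = M24 ⊓ MulAction.stabilizer PG (unmask 8388609)) ∧
      ∀ w ∈ V, w ≠ 1 → Nat.card (Sb σ w) = 138240 ∨ Nat.card (Sb σ w) = 887040 := by
  obtain ⟨_, _, -, -, h3⟩ := exists_act h
  obtain ⟨⟨v, hv⟩, h4⟩ := Mod1.duad h.card (u := ⟨u, hu⟩) (by rw [← h3, h1, card_SY_false])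
  exact ⟨⟨v, v.2, (h3 v).trans hv⟩, fun w hw w1 => by
    rw [show Sb σ w = _ from h3 ⟨w, hw⟩]
    exact h4 _ fun e => w1 (congrArg Subtype.val e)⟩

end Cfsg.Agent.R24
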