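import Mathlib
import Cfsg.Agent.R24.Mod1

set_option autoImplicit false

namespace Cfsg.Agent.R24

open Cfsg.Agent.Spor Cfsg.Agent.Inv.Fz Subgroup
open Cfsg.Agent.Spor.MB hiding cj
open scoped Pointwise

variable {G : Type*} [Group G] [Finite G]

variable {V : Subgroup G} {σ : normalizer (V : Set G) →* PG}

namespace Mod2

theorem prod_symmDiff {A α : Type*} [CommGroup A] [Fintype α] [DecidableEq α] (f : α → A) (hf : ∀ a, f a * f a = 1)
    (s u : Finset α) : ∏ p ∈ symmDiff s u, f p = (∏ p ∈ s, f p) * ∏ p ∈ u, f p := by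
  rw [← Finset.prod_ite_mem_eq (symmDiff s u), ← Finset.prod_ite_mem_eq s, ← Finset.prod_ite_mem_eq u,
    ← Finset.prod_mul_distrib]
  refine Finset.prod_congr rfl fun p _ => ?_
  by_cases h1 : p ∈ s <;> by_cases h2 : p ∈ u <;> simp [Finset.mem_symmDiff, h1, h2, hf]

theorem sets {α : Type*} [DecidableEq α] (o o' : Finset α) : symmDiff (o ∩ o') (o \ o') = o ∧
    symmDiff (o ∩ o') (o' \ o) = o' ∧ o ∩ o' ∪ o \ o' = o ∧ o ∩ o' ∪ o' \ o = o' := by
  refine ⟨?_, ?_, ?_, ?_⟩ <;> ext p <;> simp [Finset.mem_symmDiff] <;> tauto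

theorem CW_ind {P : Finset GolayPt → Prop} (h0 : P ∅) (h1 : ∀ s ∈ CW, ∀ u ∈ CW, P s → P u → P (symmDiff s u))
    (h2 : ∀ o ∈ octads, P o) : ∀ s ∈ CW, P s := fun s hs => by
  obtain ⟨x, -, e⟩ := exists_enc (mem_CW_iff.1 hs)
  have key : ∀ n ≤ 12, P (unmask (xorN (fun i => Nat.mul (Nat.land (Nat.shiftRight x i) 1) (bas i)) n)) := by
    intro n hn
    induction n with
    | zero => exact unmask_zero ▸ h0
    | succ n ih =>
      rw [xorN, unmask_xor]
      refine h1 _ (unmask_bit_mul_mem (unmask_bas_mem hn)) _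
        (unmask_xorN_mem fun i hi => unmask_bit_mul_mem (unmask_bas_mem (by omega))) ?_ (ih (by omega))
      rw [land_shiftRight_one]
      split_ifs
      · have : ∀ i < 12, pc (bas i) = 8 := by decide +kernel
        rw [Nat.mul_eq, one_mul]
        exact h2 _ ⟨unmask_bas_mem hn, (card_unmask _).trans (this n hn)⟩
      · rw [Nat.mul_eq, zero_mul, unmask_zero]; exact h0
  rw [← unmask_mask s, ← e, enc_eq_xorN]
  exact key 12 le_rfl

/-- A symmetric function of triples that does not depend on the last entry is constant. -/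
theorem const3 {α β : Type*} {S : Set α} (f : α → α → α → β) (s1 : ∀ a b c, f a b c = f b a c)
    (s2 : ∀ a b c, f a b c = f a c b)
    (h : ∀ a ∈ S, ∀ b ∈ S, ∀ c ∈ S, ∀ d ∈ S, a ≠ b → a ≠ c → a ≠ d → b ≠ c → b ≠ d → c ≠ d → f a b c = f a b d)
    {a b c x y z : α} (ha : a ∈ S) (hb : b ∈ S) (hc : c ∈ S) (hx : x ∈ S) (hy : y ∈ S) (hz : z ∈ S)
    (ab : a ≠ b) (ac : a ≠ c) (bc : b ≠ c) (xy : x ≠ y) (xz : x ≠ z) (yz : y ≠ z) : f x y z = f a b c := by
  have k3 : ∀ z ∈ S, a ≠ z → b ≠ z → f a b z = f a b c := fun z hz h1 h2 => by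
    by_cases e : z = c
    · rw [e]
    · exact h a ha b hb z hz c hc ab h1 ac h2 bc e
  have k2 : ∀ y ∈ S, ∀ z ∈ S, a ≠ y → a ≠ z → y ≠ z → f a y z = f a b c := fun y hy z hz h1 h2 h3 => by
    by_cases e : y = b
    · subst e; exact k3 z hz h2 h3
    by_cases e' : z = b
    · subst e'; rw [s2]; exact k3 y hy h1 h3.symm
    · rw [h a ha y hy z hz b hb h1 h2 ab h3 e e', s2]; exact k3 y hy h1 (Ne.symm e)
  by_cases e1 : x = a
  · subst e1; exact k2 y hy z hz xy xz yz
  by_cases e2 : y = a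
  · subst e2; rw [s1]; exact k2 x hx z hz xy.symm yz xz
  by_cases e3 : z = a
  · subst e3; rw [s2, s1]; exact k2 x hx y hy xz.symm yz.symm xy
  · rw [h x hx y hy z hz a ha xy xz e1 yz e2 e3, s2, s1]; exact k2 x hx y hy (Ne.symm e1) (Ne.symm e2) xy

omit [Finite G] in
theorem comm (h : Md V σ) : IsMulCommutative V := ⟨⟨fun a b => Subtype.ext (by
  have h1 := h.sq _ (mul_mem a.2 b.2)
  calc (a : G) * b = ((a : G) * b)⁻¹ := (inv_eq_of_mul_eq_one_left h1).symm
    _ = b * a := by rw [mul_inv_rev, inv_eq_of_mul_eq_one_left (h.sq _ a.2), inv_eq_of_mul_eq_one_left (h.sq _ b.2)])⟩⟩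

/-- Conjugation on `V`. -/
def ρ (n : normalizer (V : Set G)) : V →* V := (V.normalizerMonoidHom n).toMonoidHom

omit [Finite G] in
theorem coe_ρ (n : normalizer (V : Set G)) (x : V) : (ρ n x : G) = n * x * (n : G)⁻¹ := rfl

omit [Finite G] in
theorem sq' (h : Md V σ) (x : V) : x * x = 1 := Subtype.ext (h.sq _ x.2)

omit [Finite G] in
theorem σ_mem (h : Md V σ) (n : normalizer (V : Set G)) : σ n ∈ M24 := h.range.le ⟨n, rfl⟩

omit [Finite G] in
theorem mem_Sb (h : Md V σ) {n : normalizer (V : Set G)} {u : V} : σ n ∈ Sb σ u ↔ ρ n u = u := by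
  refine ⟨?_, fun e => ⟨n, mem_centralizer_singleton_iff.2 (mul_inv_eq_iff_eq_mul.1 (congrArg Subtype.val e)), rfl⟩⟩
  rintro ⟨m, hm, e⟩
  have h1 : ((m⁻¹ * n : normalizer (V : Set G)) : G) ∈ V := (h.ker _).1 (by rw [map_mul, map_inv, e, inv_mul_cancel])
  have h2 : ((m⁻¹ * n : normalizer (V : Set G)) : G) * u = u * (m⁻¹ * n : normalizer (V : Set G)) :=
    congrArg Subtype.val ((comm h).is_comm.comm ⟨_, h1⟩ u)
  have h3 := mul_mem (show (m : G) ∈ centralizer {(u : G)} from hm) (mem_centralizer_singleton_iff.2 h2)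
  exact Subtype.ext (mul_inv_eq_iff_eq_mul.2 (mem_centralizer_singleton_iff.1 (by simpa using h3)))

omit [Finite G] in
theorem le_Sb (h : Md V σ) {H : Subgroup PG} (hH : H ≤ M24) {u : V} (hu : ∀ n, σ n ∈ H → ρ n u = u) :
    H ≤ Sb σ u := fun g hg => by
  obtain ⟨n, rfl⟩ := h.range.ge (hH hg)
  exact (mem_Sb h).2 (hu n hg)

omit [Finite G] in
theorem ne_one (h : Md V σ) {u : V} (h1 : Nat.card (Sb σ u) ≠ 244823040) : u ≠ 1 := fun e => h1 (by
  rw [le_antisymm (show Sb σ u ≤ M24 by rintro _ ⟨n, -, rfl⟩; exact σ_mem h n)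
    (le_Sb h le_rfl fun n _ => by rw [e, map_one]), card_M24])

omit [Finite G] in
theorem exists_equiv (h : Md V σ) {X : Type} [MulAction PG X] (x0 : X) (u : V)
    (hu : M24 ⊓ MulAction.stabilizer PG x0 ≤ Sb σ u) : ∃ v : X → V, v x0 = u ∧ (∀ n x, ρ n (v x) = v (σ n • x)) ∧
      ∀ x, (∀ g : PG, g • x0 ≠ x) → v x = 1 := by
  classical
  have mul : ∀ (n m : normalizer (V : Set G)) (x : V), ρ (n * m) x = ρ n (ρ m x) := fun n m x => by
    simp [ρ]
  have key : ∀ n m, σ n • x0 = σ m • x0 → ρ n u = ρ m u := fun n m e => by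
    have h1 := (mem_Sb h).1 (hu (x := σ (m⁻¹ * n)) ⟨σ_mem h _, MulAction.mem_stabilizer_iff.2 (by
      rw [map_mul, map_inv, mul_smul, e, inv_smul_smul])⟩)
    rw [← mul_inv_cancel_left m n, mul, h1]
  let v : X → V := fun x => if h : ∃ n, σ n • x0 = x then ρ h.choose u else 1
  have hv : ∀ n, v (σ n • x0) = ρ n u := fun n => by
    have h1 : ∃ m, σ m • x0 = σ n • x0 := ⟨n, rfl⟩
    simp only [v, dif_pos h1]
    exact key _ _ h1.choose_spec
  refine ⟨v, by simpa [ρ] using hv 1, fun n x => ?_, fun x hx => dif_neg fun ⟨n, e⟩ => hx _ e⟩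
  by_cases h1 : ∃ m, σ m • x0 = x
  · obtain ⟨m, rfl⟩ := h1
    rw [hv, ← mul_smul, ← map_mul, hv, mul]
  · have h2 : ¬ ∃ m, σ m • x0 = σ n • x := fun ⟨m, e⟩ =>
      h1 ⟨n⁻¹ * m, by rw [map_mul, map_inv, mul_smul, e, inv_smul_smul]⟩
    simp only [v, dif_neg h1, dif_neg h2, map_one]

end Mod2

open Mod2

theorem Md.fr_of_set (h : Md V σ) (t : Bool) (Z : Finset GolayPt → G) (hZ : ∀ s, Dom t s → Z s ∈ V)
    (hm : ∀ s u, Dom t s → Dom t u → Z (symmDiff s u) = Z s * Z u) (hk : ∀ s, Ker t s → Z s = 1)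
    (ha : ∀ n : normalizer (V : Set G), ∀ s, Dom t s → n * Z s * (n : G)⁻¹ = Z (σ n • s))
    (h0 : ∃ s, Dom t s ∧ Z s ≠ 1) : ∃ F : Fr t G, F.V = V := by
  let e : ℕ → G := fun a => Z (unmask (rp t a))
  have ex : ∀ a < 2048, ∀ b < 2048, e (a ^^^ b) = e a * e b := fun a ha b hb => by
    simp only [e]
    rw [rp_xor, ← Nat.xor_eq, unmask_xor, hm _ _ (dom_rp t ha) (dom_rp t hb)]
  have eV : ∀ a < 2048, e a ∈ V := fun a ha => hZ _ (dom_rp t ha)
  have eZ : ∀ s, Dom t s → Z s = e (lm t (mask s)) := fun s hs => by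
    have h1 := hk _ (ker_rp hs)
    rw [hm _ _ hs (dom_rp t (lm_lt t _))] at h1
    exact (eq_inv_of_mul_eq_one_left h1).trans (inv_eq_of_mul_eq_one_left (h.sq _ (eV _ (lm_lt t _))))
  have ea : ∀ n : normalizer (V : Set G), ∀ a < 2048, n * e a * (n : G)⁻¹ = e (ac t (code (σ n)) a) := fun n a h1 => by
    simp only [e]
    rw [ha n _ (dom_rp t h1), eZ _ ((dom_rp t h1).smul (σ_mem h n)), lm_smul (σ_mem h n) (dom_rp t h1),
      mask_unmask (rp_lt _ _), lm_rp t h1]
  have e0 : e 0 = 1 := left_eq_mul.1 (ex 0 (by decide) 0 (by decide))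
  let U : Subgroup G :=
    { carrier := {x | ∃ a < 2048, e a = x}
      one_mem' := ⟨0, by decide, e0⟩
      mul_mem' := by rintro _ _ ⟨a, ha, rfl⟩ ⟨b, hb, rfl⟩; exact ⟨_, xor_lt ha hb, ex a ha b hb⟩
      inv_mem' := by rintro _ ⟨a, ha, rfl⟩; exact ⟨a, ha, eq_inv_of_mul_eq_one_left (h.sq _ (eV a ha))⟩ }
  have hU : U = V := h.eq_of_norm (by rintro _ ⟨a, ha, rfl⟩; exact eV a ha) (fun hb => by
    obtain ⟨s, hs, h1⟩ := h0
    exact h1 (mem_bot.1 (hb.le ⟨_, lm_lt t _, (eZ s hs).symm⟩))) fun n hn => mem_normalizer_of_conj_mem (by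
      rintro _ ⟨a, ha, rfl⟩
      exact ⟨_, ac_lt _ _ _, (ea ⟨n, hn⟩ a ha).symm⟩)
  have hinj : Function.Injective fun a : Fin 2048 => (⟨e a, eV a a.2⟩ : V) :=
    ((Nat.bijective_iff_surjective_and_card _).2 ⟨fun x => by
      obtain ⟨a, ha, e'⟩ := hU.ge x.2
      exact ⟨⟨a, ha⟩, Subtype.ext e'⟩, by rw [h.card]; simp⟩).1
  exact ⟨⟨V, σ, e, ex, fun a ha e' => congrArg Fin.val (hinj (a₁ := ⟨a, ha⟩) (a₂ := 0) (Subtype.ext (e'.trans e0.symm))),
    fun x => by rw [← hU]; rfl, h.range, h.ker, ea, h.cent⟩, rfl⟩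

open scoped IsMulCommutative in
theorem Md.fr_code (h : Md V σ) {u : G} (hu : u ∈ V) (h1 : Sb σ u = SY true) : ∃ F : Fr true G, F.V = V := by
  have := comm h
  obtain ⟨v, v0, va, -⟩ := exists_equiv h O0 ⟨u, hu⟩ h1.ge
  have sq := sq' h
  have lift : ∀ g ∈ M24, ∃ n, σ n = g := fun g hg => h.range.ge hg
  have triv : ∀ (w : V) (H : Subgroup PG), H ≤ M24 → P2 ≤ H → ¬ H ≤ SY true → (∀ n, σ n ∈ H → ρ n w = w) → w = 1 :=
    fun w H a b c d => by_contra fun hw => by
      have h2 := le_Sb h a d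
      rcases h.stab w.2 (fun e => hw (Subtype.ext e)) (b.trans h2) with e | e
      exacts [c (e ▸ h2), h.not_both hu w.2 h1 e]
  -- trios
  have pW : ∀ (n : normalizer (V : Set G)) (F : Finset (Finset GolayPt)),
      ρ n (∏ o ∈ F, v o) = ∏ o ∈ σ n • F, v o := fun n F => by
    rw [map_prod, Finset.smul_finset_def, Finset.prod_image fun a _ b _ e => MulAction.injective (σ n) e]
    exact Finset.prod_congr rfl fun o _ => va n o
  have t0 : ∏ o ∈ T0, v o = 1 := triv _ (M24 ⊓ MulAction.stabilizer PG T0) inf_le_left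
    (fun g hg => ⟨P2_le hg, P2_smul_T0 g hg⟩) (fun hle => by
      obtain ⟨g, hg, e⟩ := gens_gT0 _ List.mem_cons_self
      have := (mem_SY.1 (hle hg)).2
      rw [e] at this
      revert this; decide +kernel) fun n hn => by rw [pW, show σ n • T0 = T0 from hn.2]
  have t1 : ∀ o ∈ octads, ∀ o' ∈ octads, Disjoint o o' → v o * v o' = v (o ∪ o')ᶜ := fun o ho o' ho' hd => by
    obtain ⟨g, hg, e⟩ := exists_smul_T0 (trioOf_mem ho ho' hd)
    obtain ⟨n, rfl⟩ := lift g hg
    have h2 := pW n T0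
    have n1 := octad_ne_of_disjoint ho hd
    have n2 := octad_ne_of_disjoint ho (disjoint_compl_right.mono_left (Finset.subset_union_left (s₂ := o')))
    have n3 := octad_ne_of_disjoint ho' (disjoint_compl_right.mono_left (Finset.subset_union_right (s₁ := o)))
    rw [t0, map_one, e, trioOf, Finset.prod_insert (by
      rw [Finset.mem_insert, Finset.mem_singleton]; exact not_or.2 ⟨n1, n2⟩), Finset.prod_pair n3, ← mul_assoc] at h2
    exact (eq_inv_of_mul_eq_one_left h2.symm).trans (inv_eq_of_mul_eq_one_left (sq _))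
  -- sextets
  let f : Finset GolayPt → Finset GolayPt → Finset GolayPt → V := fun a b c => v (a ∪ b) * (v (a ∪ c) * v (b ∪ c))
  have fa : ∀ n a b c, ρ n (f a b c) = f (σ n • a) (σ n • b) (σ n • c) := fun n a b c => by
    simp only [f, map_mul, va, smul_union]
  have fc : ∀ {a b c x y z}, a ∈ S0 → b ∈ S0 → c ∈ S0 → x ∈ S0 → y ∈ S0 → z ∈ S0 → a ≠ b → a ≠ c → b ≠ c →
      x ≠ y → x ≠ z → y ≠ z → f x y z = f a b c := const3 (S := (S0 : Set (Finset GolayPt))) f
    (fun a b c => by simp only [f]; rw [Finset.union_comm b a, mul_comm (v (a ∪ c))])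
    (fun a b c => by simp only [f]; rw [Finset.union_comm c b, mul_left_comm])
    fun a ha b hb c hc d hd ab ac ad bc bd cd => by
      have o := S0_mem.2.2
      have dj := fun {t u} (ht : t ∈ S0) (hu : u ∈ S0) => sextet_disjoint S0_mem ht hu
      have e1 := t1 _ (o a ha c hc ac) _ (o b hb d hd bd) (by
        simp only [Finset.disjoint_union_left, Finset.disjoint_union_right]
        exact ⟨⟨dj ha hb ab, dj hc hb bc.symm⟩, dj ha hd ad, dj hc hd cd⟩)
      have e2 := t1 _ (o a ha d hd ad) _ (o b hb c hc bc) (by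
        simp only [Finset.disjoint_union_left, Finset.disjoint_union_right]
        exact ⟨⟨dj ha hb ab, dj hd hb bd.symm⟩, dj ha hc ac, dj hd hc cd.symm⟩)
      rw [show a ∪ d ∪ (b ∪ c) = a ∪ c ∪ (b ∪ d) by ac_rfl, ← e1] at e2
      simp only [f]
      congr 1
      calc _ = v (a ∪ c) * v (b ∪ d) * (v (b ∪ d) * v (b ∪ c)) := by
            rw [mul_assoc, ← mul_assoc (v (b ∪ d)), sq, one_mul]
        _ = _ := by rw [← e2, mul_comm (v (b ∪ d)), mul_assoc, ← mul_assoc (v (b ∪ c)), sq, one_mul]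
  have f0 : ∀ a ∈ S0, ∀ b ∈ S0, ∀ c ∈ S0, a ≠ b → a ≠ c → b ≠ c → f a b c = 1 := fun a ha b hb c hc ab ac bc =>
    triv _ (SY false) (SY_le _) (P2_le_SY _) (fun hle => by
      have := card_dvd_of_le hle
      rw [card_SY_false, card_SY_true] at this
      omega) fun n hn => by
      have hs : ∀ t ∈ S0, σ n • t ∈ S0 := fun t ht => by
        rw [← show σ n • S0 = S0 from hn.2]; exact Finset.smul_mem_smul_finset ht
      have inj := MulAction.injective (β := Finset GolayPt) (σ n)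
      rw [fa, fc ha hb hc (hs a ha) (hs b hb) (hs c hc) ab ac bc (inj.ne ab) (inj.ne ac) (inj.ne bc)]
  have r4 : ∀ o ∈ octads, ∀ o' ∈ octads, symmDiff o o' ∈ octads → v (symmDiff o o') = v o * v o' := by
    intro o ho o' ho' hs
    have c1 : (o ∩ o').card = 4 := by have := card_symmDiff_add o o'; rw [hs.2, ho.2, ho'.2] at this; omega
    have c2 : (o \ o').card = 4 := by have := Finset.card_sdiff_add_card_inter o o'; rw [ho.2] at this; omega
    have c3 : (o' \ o).card = 4 := by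
      have := Finset.card_sdiff_add_card_inter o' o; rw [ho'.2, Finset.inter_comm] at this; omega
    have ne : ∀ {a b : Finset GolayPt}, a.card = 4 → Disjoint a b → a ≠ b := fun ha hd e => by
      rw [← e, disjoint_self, Finset.bot_eq_empty] at hd
      rw [hd] at ha; simp at ha
    obtain ⟨g, hg, e⟩ := exists_smul_S0 (sextetOf_mem c1)
    obtain ⟨n, rfl⟩ := lift g hg
    have m : ∀ t : Finset GolayPt, t.card = 4 → symmDiff (o ∩ o') t ∈ CW → ∃ t' ∈ S0, σ n • t' = t := fun t a b =>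
      Finset.mem_smul_finset.1 (e ▸ mem_sextetOf.2 ⟨a, b⟩)
    obtain ⟨a, ha, ea⟩ := m _ c1 (by rw [symmDiff_self]; exact empty_mem_CW)
    obtain ⟨b, hb, eb⟩ := m _ c2 ((sets o o').1.symm ▸ ho.1)
    obtain ⟨c, hc, ec⟩ := m _ c3 ((sets o o').2.1.symm ▸ ho'.1)
    have h2 := fa n a b c
    rw [f0 a ha b hb c hc (fun e => ne c1 (Finset.disjoint_sdiff_inter o o').symm (by rw [← ea, ← eb, e]))
      (fun e => ne c1 (Finset.inter_comm o o' ▸ (Finset.disjoint_sdiff_inter o' o).symm) (by rw [← ea, ← ec, e]))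
      (fun e => ne c2 disjoint_sdiff_sdiff (by rw [← eb, ← ec, e])), map_one, ea, eb, ec] at h2
    simp only [f] at h2
    rw [(sets o o').2.2.1, (sets o o').2.2.2, ← mul_assoc] at h2
    exact ((eq_inv_of_mul_eq_one_left h2.symm).trans (inv_eq_of_mul_eq_one_left (sq _))).symm
  -- the linear extension
  let Z : Finset GolayPt → V := fun s => ∏ p ∈ s, if ix p < 12 then v (unmask (bas (ix p))) else 1
  have Zm : ∀ s t, Z (symmDiff s t) = Z s * Z t := prod_symmDiff _ fun _ => sq _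
  have Zb : ∀ i < 12, Z (unmask (bas i)) = v (unmask (bas i)) := fun i hi => by
    have h2 : ∀ i < 12, ∀ j < 12, (bas i).testBit j = true ↔ j = i := by decide +kernel
    have h3 : ix (pt i) = i := ix_pt (by omega)
    refine (Finset.prod_eq_single (pt i) (fun p hp hne => if_neg fun hlt => hne ?_) fun hn => ?_).trans (by
      rw [h3, if_pos hi])
    · rw [← (h2 i hi _ hlt).1 (mem_unmask.1 hp), pt_ix]
    · exact absurd ((pt_mem_unmask (by omega)).2 ((h2 i hi i hi).2 rfl)) hn
  have Zo : ∀ o ∈ octads, Z o = v o := by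
    have key : ∀ x < 4096, pc (enc x) = 8 → Z (unmask (enc x)) = v (unmask (enc x)) := fun x => by
      induction x using Nat.strong_induction_on with
      | _ x ih =>
      intro hx h8
      have h2 := allRange_zero (len := 4096) (f := fun x => Spor.force (enc x) fun m => bor (!Nat.beq (pc m) 8)
        (bor (!allLt 12 fun i => !Nat.beq m (bas i)) (anyL (fun y => band (blt y x) (band (blt (Nat.xor x y) x)
          (band (Nat.beq (pc (enc y)) 8) (Nat.beq (pc (enc (Nat.xor x y))) 8))))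
          [1, 256, 30, 72, 548, 1034, 2085, 2, 129, 4, 246, 8, 33, 2328, 9]))) (by decide +kernel) x hx
      simp only [feq, bor_iff, band_iff, anyL_iff, blt_iff, nbeq_iff, h8, Nat.beq_refl, Bool.not_true,
        Bool.false_eq_true, false_or, Bool.not_eq_true', ← Bool.not_eq_true, allLt_iff, not_forall, not_not] at h2
      rcases h2 with ⟨i, hi, e⟩ | ⟨y, -, y1, y2, y3, y4⟩
      · rw [e]; exact Zb i hi
      · have e : unmask (enc x) = symmDiff (unmask (enc y)) (unmask (enc (Nat.xor x y))) := by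
          rw [← unmask_xor, ← enc_xor, Nat.xor_eq, Nat.xor_eq, Nat.xor_comm x, Nat.xor_xor_cancel_left]
        have o : ∀ z, pc (enc z) = 8 → unmask (enc z) ∈ octads := fun z hz =>
          ⟨unmask_enc_mem z, (card_unmask _).trans hz⟩
        rw [e, Zm, ih y y1 (by omega) y3, ih _ y2 (by omega) y4, r4 _ (o _ y3) _ (o _ y4) (e ▸ o x h8)]
    intro o ho
    obtain ⟨x, hx, e⟩ := exists_enc (mem_octads_iff.1 ho).1
    have := key x hx (e ▸ (mem_octads_iff.1 ho).2)
    rwa [e, unmask_mask] at this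
  have Z0 : Z ∅ = 1 := Finset.prod_empty
  refine h.fr_of_set true (fun s => Z s) (fun s _ => (Z s).2) (fun s t _ _ => by rw [Zm]; rfl) ?_ (fun n s hs => ?_)
    ⟨O0, O0_mem.1, fun e => ne_one h (u := ⟨u, hu⟩) (by rw [h1, card_SY_true]; decide)
      (by rw [← v0, ← Zo _ O0_mem]; exact Subtype.ext e)⟩
  · rintro s (rfl | rfl)
    · exact congrArg Subtype.val Z0
    · have o1 : unmask 6889680 ∈ octads := unmask_mem_octads (by decide +kernel) (by decide +kernel)
      have o2 : unmask 1351424 ∈ octads := unmask_mem_octads (by decide +kernel) (by decide +kernel)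
      have h2 := t1 _ O0_mem _ o1 (by
        rw [disjoint_iff_mask, mask_unmask (by decide), mask_unmask (by decide)]; decide +kernel)
      rw [← unmask_lor, ← unmask_compl] at h2
      have e : Finset.univ = symmDiff (symmDiff O0 (unmask 6889680)) (unmask 1351424) := by
        rw [← unmask_xor, ← unmask_xor]; exact unmask_full.symm
      rw [e, Zm, Zm, Zo _ O0_mem, Zo _ o1, Zo _ o2, h2]
      exact h.sq _ (v (unmask 1351424)).2
  · refine congrArg Subtype.val (CW_ind (P := fun s => ρ n (Z s) = Z (σ n • s)) ?_ (fun s _ t _ a b => ?_)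
      (fun o ho => ?_) s hs)
    · rw [Finset.smul_finset_empty, Z0, map_one]
    · rw [smul_symmDiff, Zm, Zm, map_mul, a, b]
    · rw [Zo o ho, va, Zo _ ((smul_mem_octads_iff (σ_mem h n)).2 ho)]

open scoped IsMulCommutative in
theorem Md.fr_cocode (h : Md V σ) {u : G} (hu : u ∈ V) (h1 : Sb σ u = SY false) : ∃ F : Fr false G, F.V = V := by
  have := comm h
  obtain ⟨⟨v0, hv0, e0⟩, hw⟩ := h.duad hu h1
  obtain ⟨v, e1, va, vo⟩ := exists_equiv h (unmask 8388609) ⟨v0, hv0⟩ e0.ge
  have sq := sq' h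
  have c2 : (unmask 8388609).card = 2 := by rw [card_unmask]; decide +kernel
  have v1 : ∀ p, v {p} = 1 := fun p => vo _ fun g e => by
    have := congrArg Finset.card e
    rw [Finset.card_smul_finset, c2, Finset.card_singleton] at this
    omega
  have triv : ∀ (w : V) (s : Finset GolayPt), ¬ Nat.card ↥(M24 ⊓ MulAction.stabilizer PG s) ∣ 138240 →
      ¬ Nat.card ↥(M24 ⊓ MulAction.stabilizer PG s) ∣ 887040 → (∀ n, σ n • s = s → ρ n w = w) → w = 1 :=
    fun w s a b c => by_contra fun hn => by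
      have h2 := card_dvd_of_le (le_Sb h (H := M24 ⊓ MulAction.stabilizer PG s) inf_le_left fun n hn => c n hn.2)
      rcases hw w w.2 (fun e => hn (Subtype.ext e)) with e | e
      exacts [a (e ▸ h2), b (e ▸ h2)]
  have tri : ∀ p q r : GolayPt, v {p, q} = v {p, r} * v {q, r} := fun p q r => by
    by_cases pq : p = q
    · rw [pq, Finset.pair_eq_singleton, v1, sq]
    by_cases pr : p = r
    · rw [pr, Finset.pair_eq_singleton, v1, one_mul, Finset.pair_comm]
    by_cases qr : q = r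
    · rw [qr, Finset.pair_eq_singleton, v1, mul_one]
    have c3 : ({p, q, r} : Finset GolayPt).card = 3 := Finset.card_eq_three.2 ⟨p, q, r, pq, pr, qr, rfl⟩
    have c4 := card_stab_small (by omega) c3
    rw [show Nat.choose 24 3 = 2024 by decide +kernel] at c4
    have c5 : Nat.card ↥(M24 ⊓ MulAction.stabilizer PG ({p, q, r} : Finset GolayPt)) = 120960 := by omega
    have h2 := triv (∏ a ∈ ({p, q, r} : Finset GolayPt), v (({p, q, r} : Finset GolayPt).erase a)) {p, q, r}
      (by rw [c5]; omega) (by rw [c5]; omega) fun n hn => by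
        rw [map_prod]
        conv_rhs => rw [← hn, Finset.smul_finset_def,
          Finset.prod_image fun a _ b _ e => MulAction.injective (σ n) e, ← Finset.smul_finset_def]
        refine Finset.prod_congr rfl fun a _ => ?_
        rw [va, Finset.smul_finset_def, Finset.smul_finset_def, Finset.image_erase (MulAction.injective (σ n))]
    rw [Finset.prod_insert (by simp [pq, pr]), Finset.prod_pair qr,
      show ({p, q, r} : Finset GolayPt).erase p = {q, r} by ext x; simp; grind,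
      show ({p, q, r} : Finset GolayPt).erase q = {p, r} by ext x; simp; grind,
      show ({p, q, r} : Finset GolayPt).erase r = {p, q} by ext x; simp; grind, ← mul_assoc, mul_comm (v {q, r})] at h2
    exact ((eq_inv_of_mul_eq_one_left h2).trans (inv_eq_of_mul_eq_one_left (sq _))).symm
  let Z : Finset GolayPt → V := fun s => ∏ p ∈ s, v {p, pt 23}
  have Zm : ∀ s t, Z (symmDiff s t) = Z s * Z t := prod_symmDiff _ fun _ => sq _
  have Za : ∀ n s, Even s.card → ρ n (Z s) = Z (σ n • s) := fun n s hs => by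
    obtain ⟨k, hk⟩ := hs
    simp only [Z]
    rw [map_prod, Finset.smul_finset_def, Finset.prod_image fun a _ b _ e => MulAction.injective (σ n) e,
      Finset.prod_congr rfl fun p _ => (show ρ n (v {p, pt 23}) = v {σ n • p, pt 23} * v {σ n • pt 23, pt 23} by
        rw [va, Finset.smul_finset_insert, Finset.smul_finset_singleton, tri _ _ (pt 23)]),
      Finset.prod_mul_distrib, Finset.prod_const, hk, pow_add, ← mul_pow, sq, one_pow, mul_one]
  have Zo : ∀ o ∈ octads, Z o = 1 := fun o ho => triv _ o (by rw [card_stab_octad ho]; omega)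
    (by rw [card_stab_octad ho]; omega) fun n hn => by rw [Za n o (by rw [ho.2]; decide), hn]
  refine h.fr_of_set false (fun s => Z s) (fun s _ => (Z s).2) (fun s t _ _ => by rw [Zm]; rfl)
    (fun s hs => congrArg Subtype.val (CW_ind (P := fun s => Z s = 1) Finset.prod_empty
      (fun s _ t _ a b => by rw [Zm, a, b, mul_one]) Zo s hs)) (fun n s hs => congrArg Subtype.val (Za n s hs))
    ⟨unmask 8388609, by rw [dom_false, c2]; decide, fun e => ne_one h (u := ⟨v0, hv0⟩) (fun e' => ?_) ?_⟩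
  · have c4 := card_stab_small (by omega) c2
    rw [← e0, e'] at c4
    revert c4; decide +kernel
  · have e2 : unmask 8388609 = {pt 0, pt 23} := by
      rw [show (8388609 : ℕ) = Nat.lor (2 ^ 0) (2 ^ 23) from rfl, unmask_lor, unmask_two_pow (by decide),
        unmask_two_pow (by decide)]; rfl
    rw [← e1, ← show Z (unmask 8388609) = 1 from Subtype.ext e, e2]
    simp only [Z]
    rw [Finset.prod_pair ((pt_inj (by decide) (by decide)).not.2 (by decide)), Finset.pair_eq_singleton, v1, mul_one]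

theorem Md.exists_fr (h : Md V σ) : ∃ t, ∃ F : Fr t G, F.V = V := by
  obtain ⟨u, hu, h1, hP⟩ := h.exists_fix
  rcases h.stab hu h1 hP with e | e
  exacts [⟨true, h.fr_code hu e⟩, ⟨false, h.fr_cocode hu e⟩]

end Cfsg.Agent.R24
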