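import Mathlib
import Cfsg.Agent.R24.Loc

/-! The cocode case: the action on the six tetrads. -/

set_option autoImplicit false
set_option linter.unusedSectionVars false

namespace Cfsg.Agent.R24

open Cfsg.Agent.Spor Cfsg.Agent.Inv.Fz Subgroup
open Cfsg.Agent.Spor.MB hiding cj
open scoped Pointwise

variable {G : Type*} [Group G] [Finite G]

variable {F : Fr false G} {x v y : G}

namespace TauA

open Equiv Equiv.Perm

/-- The tetrad of a point. -/
def tix (i : ℕ) : Fin 6 := Fin.ofNat 6 (getP 4 15 0x13435214215544533212000 i)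
/-- A point of a tetrad. -/
def rep (i : Fin 6) : ℕ := getP 4 15 0x896340 i
/-- The action of a code on the tetrads. -/
def tc (c : ℕ) (i : Fin 6) : Fin 6 := tix (ap c (rep i))

theorem rep_lt : ∀ i, rep i < 24 := by decide +kernel
theorem tix_rep : ∀ i, tix (rep i) = i := by decide +kernel

/-- The permutations that respect the tetrads. -/
def Kt : Subgroup PG where
  carrier := {p | ∀ a b, tix (ix (p a)) = tix (ix (p b)) ↔ tix (ix a) = tix (ix b)}
  one_mem' := fun _ _ => Iff.rfl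
  mul_mem' := fun {p q} hp hq a b => (hp (q a) (q b)).trans (hq a b)
  inv_mem' := fun {p} hp a b => by simpa using (hp (p⁻¹ a) (p⁻¹ b)).symm

theorem SY_le_Kt : SY false ≤ Kt := le_SY fun c hc => by
  obtain ⟨g, -, rfl⟩ := gens_gS0 c hc
  refine ⟨g, forall_pt.2 fun a ha => forall_pt.2 fun b hb => ?_, rfl⟩
  rw [← ap_code g ha, ← ap_code g hb, ix_pt ha, ix_pt hb]
  exact (by decide +kernel : ∀ c ∈ gS0, ∀ a < 24, ∀ b < 24, tix (ap c a) = tix (ap c b) ↔ tix a = tix b) _ hc a ha b hb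

variable (F) in
/-- The image in `M24`. -/
def ρ : F.Y →* PG := F.σ.comp (inclusion inf_le_right)

theorem ic (y : F.Y) : F.Ic y (code (ρ F y)) := ⟨y.2.2, rfl⟩

theorem ρ_mem (y : F.Y) : ρ F y ∈ SY false := (ic y).mem_pre.1 (F.Y_eq ▸ y.2)

variable (F) in
/-- The action on the tetrads. -/
def τ : F.Y →* Perm (Fin 6) := MonoidHom.toHomPerm
  { toFun := fun y i => tix (ix (ρ F y (pt (rep i))))
    map_one' := funext fun i => by rw [map_one, Perm.one_apply, ix_pt (rep_lt i), tix_rep]; rfl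
    map_mul' := fun a b => funext fun i => by
      rw [map_mul, Perm.mul_apply]
      exact (SY_le_Kt (ρ_mem a) _ _).2 (by rw [ix_pt (rep_lt _), tix_rep]) }

theorem τ_eq {y : F.Y} {c : ℕ} (h : F.Ic y c) (i : Fin 6) : τ F y i = tc c i := by
  rw [← (ic y).unique h, tc, ap_code _ (rep_lt i)]; rfl

theorem τ_of {y : F.Y} {c : ℕ} (h : F.Ic y c) {σ : Perm (Fin 6)} (e : ∀ i, tc c i = σ i) : τ F y = σ :=
  Equiv.ext fun i => (τ_eq h i).trans (e i)

theorem liftY {c : ℕ} (h : band (inM24 c) (Nat.beq (ac false c 1024) 1024) = true) : ∃ y : F.Y, F.Ic y c := by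
  rw [band_iff, nbeq_iff] at h
  obtain ⟨g, hg⟩ := F.lift h.1
  exact ⟨⟨g, hg.mem_Y.2 h.2⟩, hg⟩

theorem liftT (n k : ℕ) {c : ℕ} (h : memL (walk mul gP2 idc n k) c = true) : ∃ y ∈ F.T, F.Ic y c := by
  obtain ⟨p, hp, rfl⟩ := gens_gP2.clo.walk n k c (memL_iff.1 h)
  obtain ⟨g, hg⟩ := F.lift' (P2_le hp)
  exact ⟨g, hg.mem_pre.2 hp, hg⟩

theorem ind {P : F.Y → Prop} (h1 : ∀ (y : F.Y) c, c ∈ idc :: gS0 → F.Ic y c → P y)
    (hm : ∀ a b, P a → P b → P (a * b)) (y : F.Y) : P y := by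
  have h0 : P 1 := h1 1 idc (by simp) (Fr.ic_idc.2 (one_mem _))
  let K : Subgroup F.Y :=
    { carrier := {y | P y}, one_mem' := h0, mul_mem' := hm _ _
      inv_mem' := fun {a} ha => by
        have : ∀ n, P (a ^ n) := fun n => n.rec (by rwa [pow_zero]) fun n ih => by rw [pow_succ]; exact hm _ _ ih ha
        have h2 := this (orderOf a - 1)
        rwa [eq_inv_of_mul_eq_one_left ((pow_succ a _).symm.trans (by
          rw [Nat.sub_add_cancel (orderOf_pos a), pow_orderOf_eq_one]))] at h2 }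
  obtain ⟨k, hk, e⟩ := le_SY (t := false) (K := K.map (ρ F)) (fun c hc => by
    obtain ⟨p, hp, rfl⟩ := gens_gS0 c hc
    obtain ⟨g, hg⟩ := F.lift' hp.1
    have h2 : g ∈ F.Y := F.Y_eq ▸ hg.mem_pre.2 hp
    exact ⟨_, ⟨⟨g, h2⟩, h1 _ _ (List.mem_cons_of_mem _ hc) hg, rfl⟩, (ic ⟨g, h2⟩).unique hg⟩) (ρ_mem y)
  have h3 : P (y * k⁻¹) := h1 _ idc (by simp) ((ic _).of_eq (by rw [map_mul, map_inv, e, mul_inv_cancel, code_one]))
  simpa using hm _ _ h3 hk

theorem uc_lt : ∀ i j, uc i j < 2048 := by decide +kernel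

theorem mem_W {a b : ℕ} (ha : a < 2048) (hb : b < 2048) : F.e a * F.e b ∈ F.W ↔ (a ^^^ b) &&& 960 = 0 := by
  rw [← F.xor a ha b hb]; exact F.e_mem_sub (xor_lt ha hb)

theorem nW {y w : G} (hy : y ∈ F.Y) (hw : w ∈ F.W) : y * w * y⁻¹ ∈ F.W := (mem_normalizer_iff.1 (F.Y_le_nW hy) w).1 hw

theorem nX {y w : G} (hy : y ∈ F.Y) (hw : w ∈ F.X) : y * w * y⁻¹ ∈ F.X := (mem_normalizer_iff.1 (F.Y_le_nX hy) w).1 hw

theorem act (y : F.Y) : ∀ i j, y * F.e (uc i j) * (y : G)⁻¹ * F.e (uc (τ F y i) (τ F y j)) ∈ F.W := by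
  induction y using ind with
  | h1 y c hc h =>
    intro i j
    rw [h.conj_e (uc_lt i j), τ_eq h, τ_eq h, mem_W (ac_lt _ _ _) (uc_lt _ _)]
    exact (by decide +kernel : ∀ c ∈ idc :: gS0, ∀ i j,
      (ac false c (uc i j) ^^^ uc (tc c i) (tc c j)) &&& 960 = 0) c hc i j
  | hm a b ha hb =>
    intro i j
    have h1 := mul_mem (nW a.2 (hb i j)) (ha (τ F b i) (τ F b j))
    rw [map_mul, Perm.mul_apply, Perm.mul_apply, Subgroup.coe_mul]
    convert h1 using 1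
    calc _ = a * (b * F.e (uc i j) * (b : G)⁻¹ * (F.e (uc (τ F b i) (τ F b j)) * F.e (uc (τ F b i) (τ F b j)))) *
          (a : G)⁻¹ * F.e (uc (τ F a (τ F b i)) (τ F a (τ F b j))) := by rw [F.e_sq (uc_lt _ _)]; group
      _ = _ := by group

theorem mem_X {g : G} {c : ℕ} (h : F.Ic g c) (hc : anyN (fun i => Nat.beq c (eS i)) 64 = true) : g ∈ F.X := by
  obtain ⟨i, hi, e⟩ := anyN_iff.1 hc
  exact Fr.mem_ES.2 ⟨i, hi, h.of_eq ((nbeq_iff _ _).1 e)⟩

theorem not_mem_X {g : G} {c : ℕ} (h : F.Ic g c) (hc : allLt 64 (fun i => !Nat.beq c (eS i)) = true) : g ∉ F.X := fun hg => by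
  obtain ⟨i, hi, e⟩ := Fr.mem_ES.1 hg
  have h1 := (allLt_iff _ _).1 hc i hi
  rw [h.unique e, Nat.beq_refl] at h1
  exact absurd h1 (by decide)

theorem x_mem (hx : F.Ic x cw) : x ∈ F.Y := hx.mem_Y.2 (by decide +kernel)

theorem sgn (hx : F.Ic x cw) (y : F.Y) : (sign (τ F y) = 1 ∧ y * x * (y : G)⁻¹ * x⁻¹ ∈ F.X) ∨
    (sign (τ F y) = -1 ∧ y * x * (y : G)⁻¹ * x ∈ F.X) := by
  induction y using ind with
  | h1 y c hc h =>
    simp only [gS0, List.mem_cons, List.not_mem_nil, or_false] at hc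
    rcases hc with rfl | rfl | rfl
    · exact .inl ⟨by rw [τ_of h (σ := 1) (by decide +kernel), map_one],
        mem_X ((h.conj hx).mul hx.inv) (by decide +kernel)⟩
    · exact .inr ⟨by rw [τ_of h (σ := swap 0 3 * swap 1 2 * swap 1 4) (by decide +kernel)]; decide,
        mem_X ((h.conj hx).mul hx) (by decide +kernel)⟩
    · exact .inr ⟨by
        rw [τ_of h (σ := swap 0 1 * swap 0 2 * swap 0 4 * swap 0 5 * swap 0 3) (by decide +kernel)]; decide,
        mem_X ((h.conj hx).mul hx) (by decide +kernel)⟩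
  | hm a b ha hb =>
    have hY := x_mem hx
    rw [map_mul, map_mul, Subgroup.coe_mul]
    rcases ha with ⟨a1, a2⟩ | ⟨a1, a2⟩ <;> rcases hb with ⟨b1, b2⟩ | ⟨b1, b2⟩ <;> rw [a1, b1]
    · exact .inl ⟨by simp, by convert mul_mem (nX a.2 b2) a2 using 1; group⟩
    · exact .inr ⟨by simp, by convert mul_mem (nX a.2 b2) (nX (inv_mem hY) (inv_mem a2)) using 1; group⟩
    · exact .inr ⟨by simp, by convert mul_mem (nX a.2 b2) a2 using 1; group⟩
    · exact .inl ⟨by simp, by convert mul_mem (nX a.2 b2) (nX hY (inv_mem a2)) using 1; group⟩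

theorem surj : Function.Surjective (τ F) := by
  obtain ⟨a, ha⟩ := liftY (F := F) (c := 932851997180726666040968217082663437) (by decide +kernel)
  obtain ⟨b, hb⟩ := liftY (F := F) (c := 570718141856912035455443824951876100) (by decide +kernel)
  rw [← MonoidHom.range_eq_top, eq_top_iff,
    ← closure_cycle_adjacent_swap (isCycle_finRotate (n := 4)) support_finRotate 0, closure_le]
  rintro _ (rfl | rfl)
  exacts [⟨a, τ_of ha (by decide +kernel)⟩, ⟨b, τ_of hb (by decide +kernel)⟩]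

theorem ker (hx : F.Ic x cw) (y : F.Y) : τ F y = 1 ↔ (y : G) ∈ F.X ⊔ zpowers x := by
  have hXY : F.X ≤ F.Y := F.X_le_T.trans F.T_le_Y
  have h1 : F.X ⊔ zpowers x ≤ (τ F).ker.map F.Y.subtype := sup_le (fun g hg => by
      obtain ⟨i, hi, h⟩ := Fr.mem_ES.1 hg
      exact ⟨⟨g, hXY hg⟩, τ_of (σ := 1) h ((by decide +kernel : ∀ i < 64, ∀ j, tc (eS i) j = j) i hi), rfl⟩)
    (zpowers_le.2 ⟨⟨x, x_mem hx⟩, τ_of (σ := 1) hx (by decide +kernel), rfl⟩)
  have h2 : Nat.card ((τ F).ker.map F.Y.subtype) = 3 * Nat.card F.X := by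
    have h3 := (τ F).ker.card_mul_index
    rw [index_ker, MonoidHom.range_eq_top.2 surj, card_top, Nat.card_perm, Nat.card_fin,
      show Nat.card F.Y = 2048 * 138240 by rw [F.Y_eq, F.card_pre (SY_le _), card_SY_false]] at h3
    rw [card_map_of_injective (subtype_injective _), Fr.X, F.card_pre (EX_le _), show Nat.card (EX false) = 64 from card_ES]
    rw [show Nat.factorial 6 = 720 from rfl] at h3
    omega
  have h4 : F.X ⊔ zpowers x = (τ F).ker.map F.Y.subtype := by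
    have h5 := card_mul_relIndex (le_sup_left : F.X ≤ F.X ⊔ zpowers x)
    have h6 := card_dvd_of_le h1
    rw [h2, ← h5, mul_comm 3, Nat.mul_dvd_mul_iff_left Nat.card_pos, Nat.dvd_prime Nat.prime_three] at h6
    refine eq_of_le_of_card_ge h1 ?_
    rcases h6 with h6 | h6
    · exact absurd (relIndex_eq_one.1 h6 (mem_sup_right (mem_zpowers x))) (not_mem_X hx (by decide +kernel))
    · rw [h2, ← h5, h6, mul_comm]
  rw [h4]
  exact ⟨fun h => ⟨y, h, rfl⟩, fun ⟨z, hz, e⟩ => Subtype.ext e ▸ hz⟩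

end TauA

open TauA

theorem exists_tau (hx : F.Ic x cw) : ∃ τ, Tau F x τ :=
  ⟨τ F, surj, ker hx, act, fun y h => ((sgn hx y).resolve_right fun h' => by rw [h] at h'; exact absurd h'.1 (by decide)).2,
    fun y h => ((sgn hx y).resolve_left fun h' => by rw [h] at h'; exact absurd h'.1 (by decide)).2⟩

theorem exists_uc (hv : v ∈ F.V) : ∃ i j, v * F.e (uc i j) ∈ F.W := by
  obtain ⟨a, ha, rfl⟩ := (F.mem v).1 hv
  obtain ⟨i, j, h⟩ := (by decide +kernel : ∀ k < 16, ∃ i j, 64 * k = uc i j) ((a >>> 6) &&& 15)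
    (Nat.lt_succ_of_le Nat.and_le_right)
  refine ⟨i, j, (mem_W ha (uc_lt i j)).2 ?_⟩
  rw [← h]
  exact (by decide +kernel : ∀ a < 2048, (a ^^^ 64 * ((a >>> 6) &&& 15)) &&& 960 = 0) a ha

theorem uc_mem_W (i j k l : Fin 6) : F.e (uc i j) * F.e (uc k l) ∈ F.W ↔ uc i j = uc k l :=
  (mem_W (uc_lt i j) (uc_lt k l)).trans
    ((by decide +kernel : ∀ i j k l, (uc i j ^^^ uc k l) &&& 960 = 0 ↔ uc i j = uc k l) i j k l)

theorem mem_K (hx : F.Ic x cw) (hy : y ∈ F.Y) (h : ∀ v ∈ F.V, y * v * y⁻¹ * v⁻¹ ∈ F.W) : y ∈ F.X ⊔ zpowers x := by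
  refine (ker hx ⟨y, hy⟩).1 (Equiv.ext fun i => ?_)
  have h1 : ∀ j, uc i j = uc (τ F ⟨y, hy⟩ i) (τ F ⟨y, hy⟩ j) := fun j => (uc_mem_W _ _ _ _).1 (by
    convert mul_mem (inv_mem (h _ (F.e_mem (uc_lt i j)))) (act ⟨y, hy⟩ i j) using 1
    rw [F.e_inv (uc_lt i j)]
    calc _ = (F.e (uc i j))⁻¹ * _ := by rw [F.e_inv (uc_lt i j)]
      _ = _ := by group)
  exact (by decide +kernel : ∀ i k l m : Fin 6, uc i (i + 1) = uc k l → uc i (i + 2) = uc k m → k = i) _ _ _ _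
    (h1 _) (h1 _)

theorem exists_five (F : Fr false G) : ∃ y ∈ F.Y, y ^ 5 = 1 ∧ ∀ v ∈ F.V, ∃ u ∈ F.V, v * (y * u * y⁻¹ * u⁻¹) ∈ F.W := by
  obtain ⟨⟨y, hy⟩, h⟩ := liftY (F := F) (c := 749906765795630302356065181139935596) (by decide +kernel)
  have h1 : y ^ 5 * y ^ 5 = 1 := F.sq _ ((h.pow 5).mem_V.2 (by decide +kernel))
  have h2 : F.Ic (y ^ 6) 749906765795630302356065181139935596 := (h.pow 6).of_eq (by decide +kernel)
  refine ⟨y ^ 6, pow_mem hy 6, by rw [← pow_mul, show 6 * 5 = (5 + 5) * 3 from rfl, pow_mul, pow_add, h1, one_pow],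
    fun v hv => ?_⟩
  obtain ⟨i, j, h3⟩ := exists_uc hv
  obtain ⟨k, l, h4⟩ := (by decide +kernel : ∀ i j, ∃ k l,
    (uc i j ^^^ (ac false 749906765795630302356065181139935596 (uc k l) ^^^ uc k l)) &&& 960 = 0) i j
  refine ⟨_, F.e_mem (uc_lt k l), ?_⟩
  rw [h2.comm_e (uc_lt k l)]
  convert mul_mem h3 ((mem_W (uc_lt i j) (xor_lt (ac_lt _ _ _) (uc_lt k l))).2 h4) using 1
  rw [mul_assoc, ← mul_assoc (F.e (uc i j)), F.e_sq (uc_lt i j), one_mul]

theorem exists_four (hx : F.Ic x cw) : ∃ y ∈ F.T, y * x * y⁻¹ * x⁻¹ ∈ F.X ∧ y * y ∉ F.X := by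
  obtain ⟨y, hy, h⟩ := liftT (F := F) 4 0x1411 (c := 135381700905549036020627264461870638) (by decide +kernel)
  exact ⟨y, hy, mem_X ((h.conj hx).mul hx.inv) (by decide +kernel), not_mem_X (h.mul h) (by decide +kernel)⟩

theorem exists_comm (hx : F.Ic x cw) : ∃ a ∈ F.Y, ∃ b ∈ F.Y, a * x * a⁻¹ * x⁻¹ ∈ F.X ∧ b * x * b⁻¹ * x⁻¹ ∈ F.X ∧
    a * b * a⁻¹ * b⁻¹ * x⁻¹ ∈ F.X := by
  obtain ⟨⟨a, ha⟩, h1⟩ := liftY (F := F) (c := 95545619214448376644113462713310209) (by decide +kernel)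
  obtain ⟨⟨b, hb⟩, h2⟩ := liftY (F := F) (c := 886815968034398865761226230346784358) (by decide +kernel)
  exact ⟨a, ha, b, hb, mem_X ((h1.conj hx).mul hx.inv) (by decide +kernel),
    mem_X ((h2.conj hx).mul hx.inv) (by decide +kernel),
    mem_X (((h1.conj h2).mul h2.inv).mul hx.inv) (by decide +kernel)⟩

end Cfsg.Agent.R24
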